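import Cfsg.Agent.H16.A10Dfs
import Cfsg.Agent.H49.JU3
import Cfsg.Agent.H83.J4T

/-! The subgroup `2^10` of a group of Janko-four type and the action of its normaliser. -/

set_option maxRecDepth 100000

namespace Cfsg.Agent.H16.A10

open Cfsg Subgroup H42 H83 H83.J4 H49.JU Matrix

/-- the pointwise stabiliser of the octad -/
def eT : ℕ := 69340619889524845583235738531501588552817198470965558712646735490895811562540500009482589715791422904463611208168882717128907519840344625887777228212940828502105315562048513192111639463830470061770246851862314985043780635227713273374403347268109298626820202681215161224390440629950325090351799142349490432109767596300017832594835398593235935903142955096915693702882252541147141108713878812636918062599966146594416544993689654657338140493976867030792013554611523978712303971765033110995121042399532250150295138003014930600261905447160445144412621979626040485798917373617198172192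
/-- basis of the fixed space -/
def mW : ℕ := 1004618075551205228379373632
/-- coordinates -/
def mWi : ℕ := 1496590432827324048848605976501776774716124084895808
/-- table of wedge products -/
def wgT : ℕ := 239181897954778517747182052923683768986473681667552980692022843349175959517787672028290457186131870753131209153090701951355445780455555576170776251038994662224300988810759348650060771774857841575990828713937132816250985537798379108435235091646455125859946683551547667788331467055294756096596905554235625847213341734261620245114951790825734771518213176477846259082389827058318758221645561708132833499129669901617373388666302782625457358609534312523350670998060673443507623968211991233717560321250084161374419372840474498554048546585200115617428610160980270151069694594404344748835938161339187174395229258654550914433661968720918166174759201780045009260450310935808307370920187309640158209761628882261274664654433448316164156996083592466259435959916655426269814167874621392094614799432742903748205853960353798564683375478601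33591604214948323210476869493076216213276715992215168343550956561861888740788501407510325145861329531008558058896431446936690406597561418825779573326482665558640583612565528112696859998128928314257288154216199530780370546794041124086494767044941957540573102123600810013407757455105382720595012964110360118490921821927676627644542279400965238266353052900816222238549285797316233112969237708431432932154886171615556835603691683113859245644990355937608954457177257409691828156990926698637414454567365602003549300328858784931699488146641667935822983240860133590389684029515501990307263989538389425449924361417947444880582087838265923103272644381536374758544299356930978176900461925482424296819243631648398157917039095991525689256478961182983050532934626686854257036664815993075394314440186736443901280494052086490679784633183436690464461416201339356015925282191257423615878140666299094625466650259884668444633687671535517081214526437465679859350248349890545528716794446076319435038828394100648259586350243823289871981392411652720811630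35468665828110700483825000717107089752644207867633678999728404296659642949014410303809864982392333270625598796931132873873036749308623013244083412698287355213459887445053057919609187611834950320199179625719593542818479462167791846545319172772510372514528277003813525019389895770333625280353191617272973813938761135936555445847759814843145568780979811105625511426619246401859608378053585018664684963365417674156384250680992570266722373111935820260398319860225165892554637907948713588200072314782764223496091911605562994991984198068471492033235414116577831727740184141810204787215156691125127650753923335761130599923611111213521430927331729313651836796815830445246217182387355958514365347595835457064192824704583612889727172788228780027130395296062669452348459806802239280108700687807278964373561910765139067388239777607012272244510854449866715185013092776375102528682679887161460745125373446378756584312853546864282341677389630519690304076064683478249007168961288768231237152303084080588639806062522903515523005393391650576696772376103577068311497254218314660780343210951256462044652636500933580634647693198965165691000975192376337946947659934822210530132021621217494574947751095334343707344551206072179680251605640645036736512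
/-- basis of the normaliser in `V` -/
def mV0 : ℕ := 29860853670187708909226370205140799135230722112
/-- coordinates -/
def mV0i : ℕ := 2718427232979110018690734746330009677910123038179398
/-- a basis of the ten dimensional space -/
def mBL : ℕ := 11418068654598229877270658386072465090035908609
/-- coordinates -/
def mBi : ℕ := 11418068654598229877283956219593333309818601473
/-- generators in `V` -/
def VL : List (ℕ × ℕ × ℕ × ℕ) := [(12, 313596901070056062977, 313596901070056062977, 11507272315962278508548083777711137076503773185), (6, 332043645143765614593, 332043645143765614593, 11774883300033655294246920863866369102399537153), (458, 368937133291184717825, 368937133291184717825, 12131692500992748351100225784524464996527243265), (1339, 442724109586022924289, 442724109586022924289, 11418079543717048413926517277344074402640297985)]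
/-- generators in the complement -/
def gLs : List (ℕ × ℕ × ℕ × ℕ) := [(731472906723693082407226178428634115, 295148749642937729037, 295149594050688581634, 4281939081093599020532641108936973020706242566), (151090748579660683470193123991304369, 295152127321183420419, 295151564371230130178, 21408802503207652186925142886172285324019499009), (151456856085879939559718682089981009, 295150156996346511369, 295150156996346511369, 11418068654598270442065686453583646165118877713), (70568071819676001186373189022846693, 295150156996347035649, 295150156996347035649, 11418068657256685868816310896059419590429638661), (735182055212258915281538319703348675, 295150157030706249729, 295150157030706249729, 11418242879170093397739772398046306935566106625)]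
/-- matrix of the extra generator -/
def sM : ℕ := 295154660595973881857
/-- its exterior square -/
def sS : ℕ := 11418068654598229877555966521247385049039503361
/-- generating matrices -/
def SL7 : List ℕ := [11507272315962278508548083777711137076503773185, 11774883300033655294246920863866369102399537153, 12131692500992748351100225784524464996527243265, 11418079543717048413926517277344074402640297985, 4281939081093599020532641108936973020706242566, 21408802503207652186925142886172285324019499009, 11418068654598229877555966521247385049039503361]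
/-- data for the extra generator -/
def sD : List (ℕ × List ℕ) := [(1152, [1, 0, 0, 1, 0, 1, 0, 0, 0, 0, 0, 0, 1, 0, 0]), (1152, [1, 2, 0, 0, 1, 0, 1, 0, 0, 0, 0, 0, 0, 1, 0, 0]), (1152, [1, 0, 0, 1, 2, 0, 1, 0, 0, 0, 0, 0, 0, 1, 0, 0]), (1157, [1, 0, 0, 1, 0, 1, 0, 0, 0, 0, 0, 0, 1, 0, 0]), (1156, [1, 0, 0, 1, 0, 1, 0, 0, 0, 0, 0, 0, 1, 0, 0])]
/-- a duad meeting the octad in one point -/
def j0 : ℕ := 586

/-- elements of the pointwise stabiliser -/
def eL (m : ℕ) : ℕ := fld 120 eT m
/-- wedge product -/
def wg (a b : ℕ) : ℕ := fld 10 wgT (Nat.add (Nat.mul 32 a) b)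
/-- the cocode part -/
def wc (n : ℕ) : ℕ := mv mW (Nat.mod n 64)
/-- membership in the fixed space -/
def inW (j : ℕ) : Bool := Nat.ble (mv mWi j) 63
/-- membership in the normaliser -/
def inV0 (j : ℕ) : Bool := Bool.and (Nat.ble (mv mV0i j) 4095) (Nat.beq (mv mV0 (mv mV0i j)) j)

theorem chk_E : ∀ m < 16, inM (eL m) = true ∧ inRB (eL m) = true ∧ famAct 3 (eL m) trio0 = trio0 ∧
    (∀ n < 16, pm (eL m) (eL n) = eL (m ^^^ n) ∧ (eL m = eL n → m = n)) ∧
    (force (cm (eL m)) fun c => allB (fun w => Nat.beq (mv c (mv mW w)) (mv mW w)) 64) = true ∧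
    ∃ n < 16, eL n = kp (cy m) := by
  decide +kernel

theorem eL_zero : eL 0 = pid := by decide +kernel

theorem chk_W : allB (fun w => Bool.and (Nat.ble (mv mW w) 2047) (Nat.beq (mv mWi (mv mW w)) w)) 64 = true ∧
    allB (fun j => Bool.or (!inW j) (Nat.beq (mv mW (mv mWi j)) j)) 2048 = true ∧
    allB (fun p => Bool.or (!tb oct0 p) (allB (fun q => Bool.or (!tb oct0 q)
      (inW (Nat.xor (pj p) (pj q)))) 24)) 24 = true ∧
    allB (fun m => Bool.or (Nat.beq m 0) (force (cm (eL m)) fun c => force (Nat.xor j0 (mv c j0)) fun d =>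
      Bool.and (!inW d) (Bool.and (Nat.ble (cnt (fun j => Nat.beq (mv c j) j) 2048) 128)
      (Bool.and (allB (fun j => Bool.or (!Nat.beq (mv c j) j) (Bool.or (inW j) (inW (Nat.xor j d)))) 2048)
      (allB (fun n => Bool.or (Nat.beq n 0) (Bool.or (Nat.beq n m) (force (cm (eL n)) fun c' =>
        allB (fun j => Bool.or (!Nat.beq (mv c j) j) (Bool.or (!Nat.beq (mv c' j) j) (inW j))) 2048))) 16)))))
      16 = true ∧
    (force (cm (eL 1)) fun c => allB (fun j => Bool.or (!inW (Nat.xor j (mv c j))) (inV0 j)) 2048) = true ∧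
    allL (fun g => inV0 (Nat.xor j0 (H49.JU.ca g j0))) gensO = true ∧
    allB (fun i => force (fld 16 mV0 i) fun a => Bool.and (Nat.ble a 2047)
      (Bool.or (inW a) (anyL (fun v => Nat.beq v.1 a) VL))) 12 = true ∧
    wc 1 = 64 ∧ wc 13 = pj 0 ∧ wc 0 = 0 := by
  refine ⟨?_, ?_, ?_, ?_, ?_, ?_, ?_, ?_, ?_, ?_⟩ <;> decide +kernel

theorem chk_wg : allB (fun a => allB (fun b => Nat.ble (wg a b) 1023) 32) 32 = true ∧
    (∀ k < 10, ∃ a < 32, ∃ b < 32, wg a b = 2 ^ k) ∧
    allB (fun i => allB (fun a => Bool.or (Nat.beq a (Nat.pow 2 i))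
      (Bool.or (allB (fun b => !Nat.beq (wg a b) (wg (Nat.pow 2 i) (Nat.pow 2 (Nat.mod (Nat.add i 1) 5)))) 32)
        (allB (fun b => !Nat.beq (wg a b) (wg (Nat.pow 2 i) (Nat.pow 2 (Nat.mod (Nat.add i 2) 5)))) 32)))
      32) 5 = true ∧
    allB (fun n => force (mv mBi n) fun c => Bool.and (Nat.ble c 4095) (Nat.beq (mv mBL c) n)) 1024 = true ∧
    (∀ i < 12, fld 16 mBL i < 1024) ∧ fld 16 mBL 10 = 0 ∧ fld 16 mBL 11 = 0 := by
  refine ⟨?_, ?_, ?_, ?_, ?_, ?_, ?_⟩ <;> decide +kernel

/-- `S` is the exterior square of the invertible matrix `M` -/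
noncomputable def okS (M M' S : ℕ) : Bool := Bool.and (allB (fun n => Nat.ble (mv S n) 1023) 1024)
  (allB (fun a => force (mv M a) fun x => Bool.and (Nat.ble x 31) (Bool.and (Nat.ble (mv M' a) 31)
    (Bool.and (Nat.beq (mv M (mv M' a)) a)
      (allB (fun b => Nat.beq (mv S (wg a b)) (wg x (mv M b))) 32)))) 32)

/-- check for a generator in `V` -/
noncomputable def vChk (d S : ℕ) : Bool := Bool.and (Nat.ble d 2047) (allB (fun i =>
  force (fld 16 mBL i) fun b => force (mv S b) fun n => Bool.and (Nat.beq (Nat.div n 64) (Nat.div b 64))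
    (Nat.beq (wc n) (Nat.xor (wc b) (Nat.xor d (H49.JU.ca (eL (Nat.div b 64)) d))))) 10)

/-- check for a generator in the complement -/
noncomputable def gChk (g S : ℕ) : Bool := Bool.and (inM g) (allB (fun i =>
  force (fld 16 mBL i) fun b => force (mv S b) fun n =>
    Bool.and (Nat.beq (pm g (eL (Nat.div b 64))) (pm (eL (Nat.div n 64)) g))
    (Nat.beq (wc n) (H49.JU.ca g (wc b)))) 10)

/-- check for the extra generator -/
noncomputable def sChk (b u : ℕ) (w : List ℕ) : Bool := force (mv sS b) fun n => force (wc b) fun a =>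
  Bool.and (Bool.and (Bool.and (okW 3 w) (Nat.beq (pW w) (eL (Nat.div n 64))))
    (Bool.and (Nat.ble b 63) (Nat.beq (wc n) a)))
  (Bool.and (Bool.and (Nat.beq (hm (tc 448) (kc a)) (hm (hm (kc a) (cW w)) (tc 448)))
    (!lab (Nat.xor a 64))) (Bool.and (Bool.and (Nat.ble u 2047) (Nat.ble 64 n))
      (Nat.beq (Nat.xor u (H49.JU.ca (pW w) u)) a)))

theorem chk_gens : allL (fun v => Bool.and (okS v.2.1 v.2.2.1 v.2.2.2) (vChk v.1 v.2.2.2)) VL = true ∧
    allL (fun v => Bool.and (okS v.2.1 v.2.2.1 v.2.2.2) (gChk v.1 v.2.2.2)) gLs = true ∧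
    okS sM sM sS = true ∧
    (∀ i < 5, sChk (fld 16 mBL (i + 1)) (sD.getD i (0, [])).1 (sD.getD i (0, [])).2 = true) ∧
    (fld 16 mBL 0 = 1 ∧ mv sS 1 = 1) ∧
    (∀ i < 4, wc (fld 16 mBL (i + 6)) = 0 ∧ mv sS (fld 16 mBL (i + 6)) = fld 16 mBL (i + 6)) ∧
    allL (fun S => Bool.or (Nat.beq S sS) (Bool.or (anyL (fun v => Nat.beq v.2.2.2 S) VL)
      (anyL (fun v => Nat.beq v.2.2.2 S) gLs))) SL7 = true ∧
    allL (fun g => anyL (fun v => Nat.beq v.1 g) gLs) gensO = true := by
  refine ⟨?_, ?_, ?_, ?_, ?_, ?_, ?_, ?_⟩ <;> decide +kernel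

theorem chk_orb : orb (actsOf mv SL7) 1 200 false (fun t1 n1 => orb (actsOf mv SL7) 13 900 false
    (fun t2 n2 => Bool.and (Bool.and (Nat.beq n1 155) (Nat.beq n2 868))
      (Bool.and (allB (fun n => Bool.or (Nat.beq n 0) (Bool.or (t1.mem n) (t2.mem n))) 1024)
        (Bool.and (Bool.and (t1.mem 4) (t1.mem (Nat.xor 4 13)))
          (Bool.and (t2.mem 12) (t2.mem (Nat.xor 12 1))))))) = true := by
  decide +kernel

/-! ### vectors -/

/-- code of a vector -/
def vc (u : Fin 5 → ZMod 2) : ℕ :=
  (u 0).val + 2 * (u 1).val + 4 * (u 2).val + 8 * (u 3).val + 16 * (u 4).val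
/-- vector of a code -/
def dec (n : ℕ) : Fin 5 → ZMod 2 := fun i => if n.testBit i = true then 1 else 0
/-- matrix of a code -/
def mat (M : ℕ) : Matrix (Fin 5) (Fin 5) (ZMod 2) := Matrix.of fun i j => dec (fld 16 M j) i

theorem vc_spec : ∀ u, vc u < 32 ∧ dec (vc u) = u := by decide +kernel

theorem vc_dec : ∀ n < 32, vc (dec n) = n := by decide +kernel

theorem dec_pow : ∀ i : Fin 5, dec (2 ^ (i : ℕ)) = Pi.single i 1 := by decide +kernel

theorem dec_xor (a b : ℕ) : dec (a ^^^ b) = dec a + dec b := by
  ext i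
  simp only [dec, Nat.testBit_xor, Pi.add_apply]
  cases a.testBit i <;> cases b.testBit i <;> rfl

theorem mat_mulVec (M : ℕ) {a : ℕ} (ha : a < 32) : mat M *ᵥ dec a = dec (mv M a) := by
  have h := xorC_induction (fun a => a < 32 ∧ mat M *ᵥ dec a = dec (mv M a))
    ⟨by norm_num, by
      have : dec 0 = 0 := by decide +kernel
      rw [mv_zero, this, mulVec_zero]⟩
    (fun a b ha hb => ⟨Nat.xor_lt_two_pow (n := 5) ha.1 hb.1, by
      rw [mv_xor _ (by omega) (by omega), dec_xor, dec_xor, mulVec_add, ha.2, hb.2]⟩)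
    (fun i => 2 ^ i) a 5 (fun i hi => ⟨Nat.pow_lt_pow_right (n := 5) (by norm_num) hi, by
      rw [mv_two_pow _ (by omega), dec_pow ⟨i, hi⟩, mulVec_single_one]; rfl⟩)
  rw [xorC_pow_self (k := 5) ha] at h
  exact h.2

theorem exists_SL {M M' : ℕ} (h : ∀ a < 32, mv M' a < 32 ∧ mv M (mv M' a) = a) :
    ∃ g : SpecialLinearGroup (Fin 5) (ZMod 2), g.1 = mat M := by
  have h1 : IsUnit (mat M) := mulVec_surjective_iff_isUnit.1 fun u =>
    ⟨dec (mv M' (vc u)), by rw [mat_mulVec _ (h _ (vc_spec u).1).1, (h _ (vc_spec u).1).2, (vc_spec u).2]⟩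
  have h2 := ((isUnit_iff_isUnit_det _).1 h1).ne_zero
  refine ⟨⟨mat M, ?_⟩, rfl⟩
  generalize (mat M).det = d at h2
  revert d; decide

theorem wg_lt {a b : ℕ} (ha : a < 32) (hb : b < 32) : wg a b < 1024 :=
  Nat.lt_succ_of_le (ble_iff.1 (of_allB (of_allB chk_wg.1 ha) hb))

theorem eq_one_of_wg {g : Matrix (Fin 5) (Fin 5) (ZMod 2)}
    (h : ∀ u v, wg (vc (g *ᵥ u)) (vc (g *ᵥ v)) = wg (vc u) (vc v)) : g = 1 := by
  have key : ∀ i : Fin 5, g *ᵥ Pi.single i 1 = Pi.single i 1 := by
    intro i
    have k := of_allB (of_allB chk_wg.2.2.1 i.2) (vc_spec (g *ᵥ dec (2 ^ (i : ℕ)))).1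
    have lt : ∀ j < 5, 2 ^ j < 32 := fun j hj => Nat.pow_lt_pow_right (n := 5) (by norm_num) hj
    have k1 := h (dec (2 ^ (i : ℕ))) (dec (2 ^ (((i : ℕ) + 1) % 5)))
    have k2 := h (dec (2 ^ (i : ℕ))) (dec (2 ^ (((i : ℕ) + 2) % 5)))
    rw [vc_dec _ (lt _ i.2), vc_dec _ (lt _ (Nat.mod_lt _ (by norm_num)))] at k1 k2
    simp only [Bool.or_eq_true, beq_iff, allB_iff, Bool.not_eq_true', beq_false_iff] at k
    rcases k with k | k | k
    · rw [← dec_pow, ← (vc_spec (g *ᵥ _)).2, k]; rfl
    · exact absurd k1 (k _ (vc_spec _).1)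
    · exact absurd k2 (k _ (vc_spec _).1)
  ext i j
  have := congrFun (key j) i
  rw [mulVec_single_one] at this
  rw [show g i j = g.col j i from rfl, this, one_apply, Pi.single_apply]

/-! ### the subgroup -/

theorem eL_ok {m : ℕ} (hm : m < 16) : inM (eL m) = true := (chk_E m hm).1

theorem eL_mem {m : ℕ} (hm : m < 16) : toM (eL m) ∈ RB := (inRB_iff (eL_ok hm)).1 (chk_E m hm).2.1

theorem eL_mul {m n : ℕ} (hm : m < 16) (hn : n < 16) :
    toM (eL m) * toM (eL n) = toM (eL (m ^^^ n)) := by
  rw [← toM_pmul (eL_ok hm) (eL_ok hn), ← pm_eq, ((chk_E m hm).2.2.2.1 n hn).1]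

theorem eL_inj {m n : ℕ} (hm : m < 16) (hn : n < 16) (h : toM (eL m) = toM (eL n)) : m = n :=
  ((chk_E m hm).2.2.2.1 n hn).2 (toM_inj (eL_ok hm) (eL_ok hn) h)

theorem exists_eL {g : M24} (hg : g ∈ RB) : ∃ m < 16, toM (eL m) = g := by
  obtain ⟨m, hm, rfl⟩ := exists_cy hg
  obtain ⟨n, hn, e⟩ := (chk_E m hm).2.2.2.2.2
  exact ⟨n, hn, by rw [e]⟩

theorem toM_eL_zero : toM (eL 0) = 1 := by rw [eL_zero, toM_pid]

theorem mW_spec {w : ℕ} (hw : w < 64) : mv mW w < 2048 ∧ mv mWi (mv mW w) = w := by
  have := of_allB chk_W.1 hw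
  simp only [Bool.and_eq_true, ble_iff, beq_iff] at this
  exact ⟨by omega, this.2⟩

theorem wc_eq (n : ℕ) : wc n = mv mW (n % 64) := rfl

theorem wc_lt (n : ℕ) : wc n < 2048 := (mW_spec (Nat.mod_lt _ (by norm_num))).1

theorem inW_iff {j : ℕ} : inW j = true ↔ mv mWi j < 64 := by rw [inW, ble_iff]; omega

theorem inW_wc (n : ℕ) : inW (wc n) = true := by
  rw [inW_iff, wc_eq, (mW_spec (Nat.mod_lt _ (by norm_num))).2]; exact Nat.mod_lt _ (by norm_num)

theorem of_inW {j : ℕ} (hj : j < 2048) (h : inW j = true) : mv mW (mv mWi j) = j := by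
  have := of_allB chk_W.2.1 hj
  rw [h] at this
  simpa [beq_iff] using this

theorem inW_xor {a b : ℕ} (ha : a < 2048) (hb : b < 2048) (h : inW a = true) (h' : inW b = true) :
    inW (a ^^^ b) = true := by
  rw [inW_iff] at *
  rw [mv_xor _ (by omega) (by omega)]
  exact Nat.xor_lt_two_pow (n := 6) h h'

theorem ca_eL {m : ℕ} (hm : m < 16) {j : ℕ} (hj : j < 2048) (h : inW j = true) :
    H49.JU.ca (eL m) j = j := by
  have k := (chk_E m hm).2.2.2.2.1
  rw [force_eq] at k
  have k := beq_iff.1 (of_allB k (inW_iff.1 h))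
  rwa [of_inW hj h, ← ca_eq] at k

theorem wc_xor (m n : ℕ) : wc (m ^^^ n) = wc m ^^^ wc n := by
  have := Nat.xor_mod_two_pow (a := m) (b := n) (n := 6)
  rw [wc_eq, wc_eq, wc_eq, ← mv_xor _ (by omega) (by omega), ← show 2 ^ 6 = 64 by norm_num, this]

theorem div_xor (m n : ℕ) : (m ^^^ n) / 64 = m / 64 ^^^ n / 64 := Nat.xor_div_two_pow (n := 6)

theorem xor_lt10 {a b : ℕ} (ha : a < 1024) (hb : b < 1024) : a ^^^ b < 1024 :=
  Nat.xor_lt_two_pow (n := 10) ha hb

variable {G : Type*} [Group G] [Finite G] (J : JL G)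

/-- the elements of the subgroup -/
noncomputable def θ (n : ℕ) : G := J.χ (wc n) * J.lam (toM (eL (n / 64)))

theorem θ_mul {m n : ℕ} (hm : m < 1024) (hn : n < 1024) : θ J m * θ J n = θ J (m ^^^ n) := by
  have h1 : m / 64 < 16 := by omega
  have h2 : n / 64 < 16 := by omega
  rw [θ, θ, θ, mul_assoc, ← mul_assoc (J.lam _), lam_mul_χ J (eL_ok h1) (wc_lt n),
    ca_eL h1 (wc_lt n) (inW_wc n), mul_assoc, ← map_mul, eL_mul h1 h2, ← mul_assoc,
    J.χ_mul (wc_lt m) (wc_lt n), wc_xor, div_xor]

theorem θ_zero : θ J 0 = 1 := by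
  rw [θ, chk_W.2.2.2.2.2.2.2.2.2, J.χ_zero, Nat.zero_div, toM_eL_zero, map_one, mul_one]

theorem θ_lt {n : ℕ} (hn : n < 64) : θ J n = J.χ (wc n) := by
  rw [θ, Nat.div_eq_of_lt hn, toM_eL_zero, map_one, mul_one]

theorem θ_one : θ J 1 = J.z := by rw [θ_lt J (by norm_num), chk_W.2.2.2.2.2.2.2.1, J.χ_64]

theorem θ_13 : θ J 13 = J.t := by rw [θ_lt J (by norm_num), chk_W.2.2.2.2.2.2.2.2.1, J.t_eq]

theorem vl_inj {a b : ℕ} (ha : a < 2048) (hb : b < 2048) {g h : M24}
    (e : J.χ a * J.lam g = J.χ b * J.lam h) : a = b ∧ g = h := by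
  have h1 : g = h := by rw [← J.μ_vl (J.χ_mem ha) g, e, J.μ_vl (J.χ_mem hb)]
  subst h1
  exact ⟨J.χ_inj ha hb (mul_right_cancel e), rfl⟩

theorem θ_inj {m n : ℕ} (hm : m < 1024) (hn : n < 1024) (e : θ J m = θ J n) : m = n := by
  obtain ⟨h1, h2⟩ := vl_inj J (wc_lt m) (wc_lt n) e
  have h3 := eL_inj (by omega) (by omega) h2
  have h4 := congrArg (mv mWi) h1
  rw [wc_eq, wc_eq, (mW_spec (Nat.mod_lt _ (by norm_num))).2,
    (mW_spec (Nat.mod_lt _ (by norm_num))).2] at h4
  omega

theorem θ_sq {n : ℕ} (hn : n < 1024) : θ J n * θ J n = 1 := by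
  rw [θ_mul J hn hn, Nat.xor_self, θ_zero]

/-- the elementary abelian subgroup of order `2^10` -/
def A : Subgroup G where
  carrier := {g | ∃ n < 1024, θ J n = g}
  one_mem' := ⟨0, by norm_num, θ_zero J⟩
  mul_mem' := by
    rintro _ _ ⟨m, hm, rfl⟩ ⟨n, hn, rfl⟩
    exact ⟨_, xor_lt10 hm hn, (θ_mul J hm hn).symm⟩
  inv_mem' := by
    rintro _ ⟨n, hn, rfl⟩
    exact ⟨n, hn, eq_inv_of_mul_eq_one_left (θ_sq J hn)⟩

theorem θ_mem {n : ℕ} (hn : n < 1024) : θ J n ∈ A J := ⟨n, hn, rfl⟩

theorem A_sq : ∀ x ∈ A J, x * x = 1 := by rintro _ ⟨n, hn, rfl⟩; exact θ_sq J hn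

theorem card_A : Nat.card (A J) = 1024 := by
  rw [← SetLike.coe_sort_coe, Nat.card_coe_set_eq, ncard_eq_cnt (A J : Set G) (θ J) (fun _ => true) 1024
    (fun i hi j hj _ _ e => θ_inj J hi hj e) (fun x => by
      change (∃ n < 1024, θ J n = x) ↔ _
      simp), cnt_eq_card]
  simp

theorem vl_mem {j : ℕ} (hj : j < 2048) {g : M24} :
    J.χ j * J.lam g ∈ A J ↔ inW j = true ∧ g ∈ RB := by
  constructor
  · rintro ⟨n, hn, e⟩
    obtain ⟨rfl, rfl⟩ := vl_inj J (wc_lt n) hj e
    exact ⟨inW_wc n, eL_mem (by omega)⟩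
  · rintro ⟨h1, h2⟩
    obtain ⟨m, hm, rfl⟩ := exists_eL h2
    have h3 := inW_iff.1 h1
    refine ⟨mv mWi j + 64 * m, by omega, ?_⟩
    rw [θ, wc_eq, show (mv mWi j + 64 * m) % 64 = mv mWi j by omega, of_inW hj h1,
      show (mv mWi j + 64 * m) / 64 = m by omega]

theorem χ_mem_A {j : ℕ} (hj : j < 2048) : J.χ j ∈ A J ↔ inW j = true := by
  have := vl_mem J hj (g := 1)
  rw [map_one, mul_one] at this
  rw [this, and_iff_left (one_mem _)]

theorem lam_mem_A {g : M24} : J.lam g ∈ A J ↔ g ∈ RB := by
  have := vl_mem J (j := 0) (by norm_num) (g := g)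
  rw [J.χ_zero, one_mul] at this
  rw [this, and_iff_right (by decide +kernel)]

theorem A_le_M : A J ≤ J.M := by
  rintro _ ⟨n, -, rfl⟩
  exact J.M.mul_mem (J.V_le_M (J.χ_mem (wc_lt n))) (J.lamM _)

theorem μ_A {x : G} (hx : x ∈ A J) : J.μ x ∈ RB := by
  obtain ⟨n, hn, rfl⟩ := hx
  rw [θ, J.μ_vl (J.χ_mem (wc_lt n))]; exact eL_mem (by omega)

theorem conj_vl {d a p : ℕ} (hd : d < 2048) (ha : a < 2048) (hp : inM p = true) :
    J.χ d * (J.χ a * J.lam (toM p)) * (J.χ d)⁻¹ = J.χ (a ^^^ (d ^^^ H49.JU.ca p d)) * J.lam (toM p) := by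
  have h1 := ca_lt p hd
  rw [inv_eq_of_mul_eq_one_right (J.V_sq _ (J.χ_mem hd)), mul_assoc, mul_assoc, lam_mul_χ J hp hd,
    ← mul_assoc, ← mul_assoc, J.χ_mul hd ha, J.χ_mul (xor_lt11 hd ha) h1, Nat.xor_comm d a,
    Nat.xor_assoc]

theorem fix_of_comm {j p : ℕ} (hj : j < 2048) (hp : inM p = true)
    (h : J.lam (toM p) * J.χ j = J.χ j * J.lam (toM p)) : H49.JU.ca p j = j := by
  rw [lam_mul_χ J hp hj] at h
  exact (vl_inj J (ca_lt p hj) hj h).1

theorem W_facts {m : ℕ} (hm : m < 16) (h0 : m ≠ 0) :
    inW (j0 ^^^ H49.JU.ca (eL m) j0) = false ∧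
    cnt (fun j => Nat.beq (H49.JU.ca (eL m) j) j) 2048 ≤ 128 ∧
    (∀ j < 2048, H49.JU.ca (eL m) j = j →
      inW j = true ∨ inW (j ^^^ (j0 ^^^ H49.JU.ca (eL m) j0)) = true) ∧
    ∀ n < 16, n ≠ 0 → n ≠ m → ∀ j < 2048, H49.JU.ca (eL m) j = j → H49.JU.ca (eL n) j = j →
      inW j = true := by
  have k := of_allB chk_W.2.2.2.1 hm
  simp only [force_eq, Bool.or_eq_true, Bool.and_eq_true, beq_iff, ble_iff, allB_iff,
    Bool.not_eq_true', beq_false_iff, ← ca_eq] at k
  obtain ⟨k1, k2, k3, k4⟩ := k.resolve_left h0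
  refine ⟨k1, k2, fun j hj h => (k3 j hj).resolve_left (fun e => e h), fun n hn h1 h2 j hj h3 h4 => ?_⟩
  exact (((((k4 n hn).resolve_left h1).resolve_left h2) j hj).resolve_left fun e => e h3).resolve_left
    fun e => e h4

theorem δ_mem_A {p q : GolayPt} (hp : p ∈ toSet oct0) (hq : q ∈ toSet oct0) : J.δ p q ∈ A J := by
  rw [J.δ_eq, χ_mem_A J (xor_lt11 (pj_lt _) (pj_lt _))]
  have k := of_allB chk_W.2.2.1 (idx_lt p)
  rw [tb_eq, mem_toSet.1 hp] at k
  have k := of_allB (by simpa using k) (idx_lt q)
  rw [tb_eq, mem_toSet.1 hq] at k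
  simpa using k

theorem cent_A {c : G} (h : ∀ a ∈ A J, c * a = a * c) : c ∈ A J := by
  have hM : c ∈ J.M := J.cent_t (h _ (θ_13 J ▸ θ_mem J (by norm_num)))
  have hd : ∀ p ∈ toSet oct0, ∀ q ∈ toSet oct0, p ≠ q → J.μ c • p = p ∨ J.μ c • p = q := by
    intro p hp q hq hne
    have e := J.conj_δ hM p q
    rw [h _ (δ_mem_A J hp hq), mul_inv_cancel_right] at e
    rcases J.δ_inj hne (fun e => hne (MulAction.injective _ e)) e with k | k
    · exact Or.inl k.1.symm
    · exact Or.inr k.2.symm
  have hR : J.μ c ∈ RB := by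
    refine mem_fixS.2 fun p hp => ?_
    by_contra hne
    have h8 : (toSet oct0).card = 8 := by decide +kernel
    obtain ⟨q, hq, r, hr, hqr⟩ := Finset.one_lt_card.1
      (show 1 < ((toSet oct0).erase p).card by rw [Finset.card_erase_of_mem hp, h8]; norm_num)
    obtain ⟨q1, q2⟩ := Finset.mem_erase.1 hq
    obtain ⟨r1, r2⟩ := Finset.mem_erase.1 hr
    exact hqr (((hd p hp q q2 q1.symm).resolve_left hne).symm.trans
      ((hd p hp r r2 r1.symm).resolve_left hne))
  obtain ⟨j, hj, e⟩ := J.decompM hM
  have hl : J.lam (J.μ c) ∈ A J := (lam_mem_A J).2 hR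
  have hf : ∀ m < 16, H49.JU.ca (eL m) j = j := by
    intro m hm
    have h1 := (lam_mem_A J).2 (eL_mem hm)
    apply fix_of_comm J hj (eL_ok hm)
    have h2 := h _ h1
    have h3 := comm_of_sq' (A_sq J) hl h1
    rw [e, mul_assoc, h3, ← mul_assoc, ← mul_assoc] at h2
    exact (mul_right_cancel h2).symm
  rw [e]
  exact (vl_mem J hj).2 ⟨(W_facts (m := 1) (by norm_num) (by norm_num)).2.2.2 2 (by norm_num)
    (by norm_num) (by norm_num) j hj (hf 1 (by norm_num)) (hf 2 (by norm_num)), hR⟩

theorem centralizer_A : centralizer (A J : Set G) = A J :=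
  le_antisymm (fun _ hc => cent_A J fun a ha => (mem_centralizer_iff.1 hc a ha).symm)
    fun _ hc => mem_centralizer_iff.2 fun _ ha => comm_of_sq' (A_sq J) ha hc

end Cfsg.Agent.H16.A10
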