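import Cfsg.Agent.H16.A10A
import Cfsg.Agent.H78.SLMat
import Cfsg.Agent.S0242

/-! The normaliser `2^10 : L₅(2)` in a group of Janko-four type. -/

set_option maxRecDepth 100000

namespace Cfsg.Agent.H16.A10

open Cfsg Subgroup H42 H83 H83.J4 H49.JU Matrix
open scoped commutatorElement

/-- the group `L₅(2)` -/
abbrev SL5 := SpecialLinearGroup (Fin 5) (ZMod 2)

theorem card_SL5 : Nat.card SL5 = 9999360 := by
  have := S0242.result (F := ZMod 2) (q := 2) (by simp) 5 (by norm_num)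
  generalize Nat.card (Matrix.SpecialLinearGroup (Fin 5) (ZMod 2)) = n at this ⊢
  revert this
  simp [Fin.prod_univ_succ]

theorem eq_top_of_tv {R : Subgroup SL5} (h1 : ∀ i : Fin 5, i ≠ 4 → H78.tv i 4 1 ∈ R)
    (h2 : H78.tv 4 3 1 ∈ R) (h3 : ∀ j : Fin 5, j ≠ 3 → j ≠ 4 → H78.tv 3 j 1 ∈ R) : R = ⊤ := by
  have cm : ∀ i j k : Fin 5, i ≠ j → j ≠ k → i ≠ k → H78.tv i j 1 ∈ R → H78.tv j k 1 ∈ R →
      H78.tv i k (1 : ZMod 2) ∈ R := by
    intro i j k a b c x y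
    have := H78.stSL_tv.cm i j k a b c (1 : ZMod 2) 1
    rw [mul_one] at this
    rw [← this, commutatorElement_def]
    exact R.mul_mem (R.mul_mem (R.mul_mem x y) (R.inv_mem x)) (R.inv_mem y)
  have h4 : ∀ j : Fin 5, j ≠ 4 → H78.tv 4 j (1 : ZMod 2) ∈ R := by
    intro j hj
    by_cases e : j = 3
    · rw [e]; exact h2
    · exact cm 4 3 j (by decide) (Ne.symm e) hj.symm h2 (h3 j e hj)
  have h5 : ∀ i j : Fin 5, i ≠ j → H78.tv i j (1 : ZMod 2) ∈ R := by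
    intro i j hij
    by_cases e : j = 4
    · subst e; exact h1 i hij
    · by_cases e' : i = 4
      · subst e'; exact h4 j e
      · exact cm i 4 j e' (Ne.symm e) hij (h1 i e') (h4 j e)
  rw [eq_top_iff]
  intro M _
  refine SpecialLinearGroup.diagonal_transvection_induction' (· ∈ R) M ?_ ?_ fun _ _ => R.mul_mem
  · intro i j hij c hc
    have hc1 : c = 1 := by revert c; decide
    subst hc1
    have : SpecialLinearGroup.diag2n hij (1 : ZMod 2) hc = 1 := by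
      apply Subtype.ext
      rw [SpecialLinearGroup.diag2n_coe]
      simp
    rw [this]; exact R.one_mem
  · intro i j hij a
    have ha : a = 0 ∨ a = 1 := by revert a; decide
    rcases ha with rfl | rfl
    · rw [SpecialLinearGroup.transvection_coeff_zero]; exact R.one_mem
    · rw [← H78.tv_of_ne hij]; exact h5 i j hij

variable {G : Type*} [Group G] [Finite G] (J : JL G)

/-- the alternating map onto generators of the subgroup -/
noncomputable def ω (u v : Fin 5 → ZMod 2) : G := θ J (wg (vc u) (vc v))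

/-- `x` acts on the subgroup as the exterior square of `g` -/
def Act (x : G) (g : SL5) : Prop := ∀ u v, x * ω J u v * x⁻¹ = ω J (g.1 *ᵥ u) (g.1 *ᵥ v)

theorem ω_mem (u v : Fin 5 → ZMod 2) : ω J u v ∈ A J := θ_mem J (wg_lt (vc_spec u).1 (vc_spec v).1)

variable {J}

theorem Act.mul {x y : G} {g h : SL5} (a : Act J x g) (b : Act J y h) : Act J (x * y) (g * h) := by
  intro u v
  rw [show x * y * ω J u v * (x * y)⁻¹ = x * (y * ω J u v * y⁻¹) * x⁻¹ by group, b, a, mulVec_mulVec,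
    mulVec_mulVec]
  rfl

theorem Act.inv {x : G} {g : SL5} (a : Act J x g) : Act J x⁻¹ g⁻¹ := by
  intro u v
  have e : ∀ w, g.1 *ᵥ ((g⁻¹).1 *ᵥ w) = w := fun w => by
    rw [mulVec_mulVec, show g.1 * (g⁻¹).1 = (g * g⁻¹).1 from rfl, mul_inv_cancel]
    exact one_mulVec w
  have := a ((g⁻¹).1 *ᵥ u) ((g⁻¹).1 *ᵥ v)
  rw [e, e] at this
  rw [← this]; group

theorem act_one {x : G} (hx : x ∈ A J) : Act J x 1 := by
  intro u v
  rw [comm_of_sq' (A_sq J) hx (ω_mem J u v), mul_inv_cancel_right, show (1 : SL5).1 = 1 from rfl,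
    one_mulVec, one_mulVec]

theorem Act.uniq {x : G} {g h : SL5} (a : Act J x g) (b : Act J x h) : g = h := by
  have c := a.inv.mul b
  rw [inv_mul_cancel] at c
  apply inv_mul_eq_one.1
  generalize g⁻¹ * h = k at c
  refine Subtype.ext (eq_one_of_wg fun u v => ?_)
  have := c u v
  rw [one_mul, inv_one, mul_one, ω, ω] at this
  exact (θ_inj J (wg_lt (vc_spec u).1 (vc_spec v).1) (wg_lt (vc_spec _).1 (vc_spec _).1) this).symm

theorem A_ind {P : G → Prop} (h1 : P 1) (hm : ∀ a b, P a → P b → P (a * b))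
    (h : ∀ u v, P (ω J u v)) {a : G} (ha : a ∈ A J) : P a := by
  obtain ⟨n, hn, rfl⟩ := ha
  have k := xorC_induction (fun n => n < 1024 ∧ P (θ J n)) ⟨by norm_num, by rwa [θ_zero]⟩
    (fun a b ha hb => ⟨xor_lt10 ha.1 hb.1, θ_mul J ha.1 hb.1 ▸ hm _ _ ha.2 hb.2⟩)
    (fun i => 2 ^ i) n 10 (fun i hi => ⟨Nat.pow_lt_pow_right (n := 10) (by norm_num) hi, by
      obtain ⟨a, ha, b, hb, e⟩ := chk_wg.2.1 i hi
      have := h (dec a) (dec b)
      rwa [ω, vc_dec a ha, vc_dec b hb, e] at this⟩)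
  rw [xorC_pow_self (k := 10) hn] at k
  exact k.2

variable (J) in
/-- the elements acting through `L₅(2)` -/
def N1 : Subgroup G where
  carrier := {x | ∃ g, Act J x g}
  one_mem' := ⟨1, act_one (one_mem _)⟩
  mul_mem' := fun ⟨g, a⟩ ⟨h, b⟩ => ⟨g * h, a.mul b⟩
  inv_mem' := fun ⟨g, a⟩ => ⟨g⁻¹, a.inv⟩

theorem A_le_N1 : A J ≤ N1 J := fun _ hx => ⟨1, act_one hx⟩

theorem N1_le : N1 J ≤ normalizer (A J : Set G) := by
  refine le_normalizer_iff.2 fun x ⟨g, a⟩ k hk => ?_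
  refine A_ind (P := fun k => x * k * x⁻¹ ∈ A J) (by simp) (fun b c hb hc => ?_)
    (fun u v => by rw [a]; exact ω_mem J _ _) hk
  rw [← conj_mul]; exact mul_mem hb hc

/-- `x` acts on the codes by the matrix `S` -/
def Cd (J : JL G) (x : G) (S : ℕ) : Prop :=
  ∀ n < 1024, mv S n < 1024 ∧ x * θ J n * x⁻¹ = θ J (mv S n)

theorem act_of {x : G} {M M' S : ℕ} (h : okS M M' S = true)
    (hb : ∀ i < 10, x * θ J (fld 16 mBL i) * x⁻¹ = θ J (mv S (fld 16 mBL i))) :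
    Cd J x S ∧ ∃ g : SL5, g.1 = mat M ∧ Act J x g := by
  simp only [okS, force_eq, Bool.and_eq_true, allB_iff, ble_iff, beq_iff] at h
  obtain ⟨h1, h2⟩ := h
  have lt : ∀ n < 1024, mv S n < 1024 := fun n hn => Nat.lt_succ_of_le (h1 n hn)
  have c : Cd J x S := by
    intro n hn
    have k0 := of_allB chk_wg.2.2.2.1 hn
    simp only [force_eq, Bool.and_eq_true, ble_iff, beq_iff] at k0
    have z : x * θ J 0 * x⁻¹ = θ J (mv S 0) := by rw [mv_zero, θ_zero]; simp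
    have k := xorC_induction (fun n => n < 1024 ∧ x * θ J n * x⁻¹ = θ J (mv S n)) ⟨by norm_num, z⟩
      (fun a b ha hb => ⟨xor_lt10 ha.1 hb.1, by
        rw [← θ_mul J ha.1 hb.1, ← conj_mul, ha.2, hb.2, θ_mul J (lt _ ha.1) (lt _ hb.1),
          mv_xor _ (by omega) (by omega)]⟩)
      (fld 16 mBL) (mv mBi n) 12 (fun i hi => ⟨chk_wg.2.2.2.2.1 i hi, by
        by_cases h10 : i < 10
        · exact hb i h10
        · obtain rfl | rfl : i = 10 ∨ i = 11 := by omega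
          · rw [chk_wg.2.2.2.2.2.1]; exact z
          · rw [chk_wg.2.2.2.2.2.2]; exact z⟩)
    rw [← mvS, ← mv_eq _ (by omega), k0.2] at k
    exact ⟨lt n hn, k.2⟩
  obtain ⟨g, hg⟩ := exists_SL (M := M) (M' := M') fun a ha =>
    ⟨Nat.lt_succ_of_le (h2 a ha).2.1, (h2 a ha).2.2.1⟩
  refine ⟨c, g, hg, fun u v => ?_⟩
  have e : ∀ w, vc (g.1 *ᵥ w) = mv M (vc w) := fun w => by
    conv_lhs => rw [hg, ← (vc_spec w).2, mat_mulVec _ (vc_spec w).1]
    exact vc_dec _ (Nat.lt_succ_of_le (h2 _ (vc_spec w).1).1)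
  rw [ω, ω, (c _ (wg_lt (vc_spec u).1 (vc_spec v).1)).2, (h2 _ (vc_spec u).1).2.2.2 _ (vc_spec v).1,
    e, e]

theorem mBL_lt {i : ℕ} (hi : i < 10) : fld 16 mBL i < 1024 := chk_wg.2.2.2.2.1 i (by omega)

variable (J)

theorem gen_V {v : ℕ × ℕ × ℕ × ℕ} (hv : v ∈ VL) :
    Cd J (J.χ v.1) v.2.2.2 ∧ ∃ g : SL5, g.1 = mat v.2.1 ∧ Act J (J.χ v.1) g := by
  have k := allL_iff.1 chk_gens.1 v hv
  simp only [vChk, force_eq, Bool.and_eq_true, allB_iff, ble_iff, beq_iff] at k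
  refine act_of k.1 fun i hi => ?_
  obtain ⟨k1, k2⟩ := k.2.2 i hi
  have := mBL_lt hi
  rw [θ, conj_vl J (by omega) (wc_lt _) (eL_ok (by omega)), θ, k2]
  exact congrArg (fun m => _ * J.lam (toM (eL m))) k1.symm

theorem gen_G {v : ℕ × ℕ × ℕ × ℕ} (hv : v ∈ gLs) :
    Cd J (J.lam (toM v.1)) v.2.2.2 ∧ ∃ g : SL5, g.1 = mat v.2.1 ∧ Act J (J.lam (toM v.1)) g := by
  have k := allL_iff.1 chk_gens.2.1 v hv
  have k0 := k
  simp only [okS, gChk, force_eq, Bool.and_eq_true, allB_iff, ble_iff, beq_iff] at k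
  simp only [Bool.and_eq_true] at k0
  refine act_of k0.1 fun i hi => ?_
  obtain ⟨k1, k2⟩ := k.2.2 i hi
  have h1 := mBL_lt hi
  have h2 := k.1.1 _ h1
  have a1 : inM (eL (fld 16 mBL i / 64)) = true := eL_ok (by omega)
  have a2 : inM (eL (mv v.2.2.2 (fld 16 mBL i) / 64)) = true := eL_ok (by omega)
  have k3 : toM v.1 * toM (eL (fld 16 mBL i / 64)) =
      toM (eL (mv v.2.2.2 (fld 16 mBL i) / 64)) * toM v.1 := by
    rw [← toM_pmul k.2.1 a1, ← toM_pmul a2 k.2.1, ← pm_eq, ← pm_eq]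
    exact congrArg toM k1
  rw [θ, θ, k2, ← mul_assoc, lam_mul_χ J k.2.1 (wc_lt _), mul_assoc (J.χ _), ← map_mul, k3, map_mul]
  group

theorem lam_RB {g : M24} (hg : g ∈ RB) (h1 : g ≠ 1) : IsConj J.z (J.lam g) := by
  refine J.lam_A (orderOf_eq_prime (by rw [pow_two]; exact RB_sq hg) h1) ?_
  rw [fixSet_RB hg h1]; decide +kernel

theorem gen_s (J : JP G) : Cd J.toJL (J.T 448) sS ∧
    ∃ g : SL5, g.1 = mat sM ∧ Act J.toJL (J.T 448) g := by
  have hs := J.hc_T (a := 448) (by norm_num)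
  refine act_of chk_gens.2.2.1 fun i hi => ?_
  rcases Nat.eq_zero_or_pos i with rfl | h0
  · rw [chk_gens.2.2.2.2.1.1, chk_gens.2.2.2.2.1.2, θ_one, hs.comm_z, mul_inv_cancel_right]
  by_cases h6 : i < 6
  · obtain ⟨i, rfl⟩ : ∃ k, i = k + 1 := ⟨i - 1, by omega⟩
    have k := chk_gens.2.2.2.1 i (by omega)
    have hS := chk_gens.2.2.1
    simp only [okS, Bool.and_eq_true, allB_iff, ble_iff] at hS
    have hn := hS.1 _ (mBL_lt hi)
    generalize fld 16 mBL (i + 1) = b at k hn ⊢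
    generalize (sD.getD i (0, [])).1 = u at k
    generalize (sD.getD i (0, [])).2 = w at k
    simp only [sChk, force_eq, Bool.and_eq_true, ble_iff, beq_iff, Bool.not_eq_true'] at k
    obtain ⟨⟨⟨k1, k2⟩, k3, k4⟩, ⟨k5, k6⟩, ⟨k7, k8⟩, k9⟩ := k
    obtain ⟨l1, l2⟩ := J.lw k1
    have hχ := hc_χ J.toJZ (wc_lt b)
    have k2' : pW w = eL (mv sS b / 64) := k2
    rw [θ_lt _ (by omega), θ, k4, ← k2']
    refine (hs.conj hχ (hχ.mul l2) k5).resolve_right fun e => ?_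
    have e1 : J.T 448 * J.χ (wc b ^^^ 64) * (J.T 448)⁻¹ = J.χ (wc b) * J.lam (toM (pW w)) := by
      rw [← J.χ_mul (wc_lt b) (by norm_num), ← conj_mul, e, J.χ_64, hs.comm_z, mul_inv_cancel_right,
        mul_assoc, J.toHyp.zz, mul_one]
    have e2 := conj_vl J.toJL (d := u) (a := 0) (by omega) (by norm_num) l1
    rw [J.χ_zero, one_mul, Nat.zero_xor, show u ^^^ H49.JU.ca (pW w) u = wc b from k9, ← e1] at e2
    have hm : mv sS b / 64 < 16 := by omega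
    have c1 : IsConj J.z (J.lam (toM (pW w))) := by
      rw [k2']
      refine lam_RB J.toJL (eL_mem hm) fun e => ?_
      have := eL_inj hm (by norm_num) (e.trans toM_eL_zero.symm)
      omega
    rw [← conj_cj (J.χ u), e2, conj_cj, J.conj_χ (xor_lt11 (wc_lt b) (by norm_num))] at c1
    exact absurd (c1.symm.trans k6) (by simp)
  · obtain ⟨i, rfl⟩ : ∃ k, i = k + 6 := ⟨i - 6, by omega⟩
    obtain ⟨k1, k2⟩ := chk_gens.2.2.2.2.2.1 i (by omega)
    have := mBL_lt hi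
    have hm : fld 16 mBL (i + 6) / 64 < 16 := by omega
    have c := JP.comm_GT (J := J) (fun p q hpq c hc =>
      J.cent_B (J.δ_mem p q) (J.δ_ne_one hpq) (J.δ_B p q) hc) (g := toM (eL (fld 16 mBL (i + 6) / 64)))
      ((toM_mem_stabilizer_famDec (eL_ok hm) famOk_trio0).2 (chk_E _ hm).2.2.1)
    rw [k2, θ, k1, J.χ_zero, one_mul, mul_inv_eq_iff_eq_mul]
    exact (mul_inv_eq_iff_eq_mul.1 c).symm

theorem lam_GO {g : M24} (hg : g ∈ GO) : J.lam g ∈ N1 J := by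
  rw [GO_eq] at hg
  refine gen_induction (P := fun g => J.lam g ∈ N1 J) (by simp) (fun p hp x hx => ?_) hg
  obtain ⟨v, hv, e⟩ := anyL_iff.1 (allL_iff.1 chk_gens.2.2.2.2.2.2.2 p hp)
  obtain ⟨-, g, -, a⟩ := gen_G J hv
  rw [beq_iff.1 e] at a
  rw [map_mul]
  exact mul_mem ⟨g, a⟩ hx

theorem χ_V0 {j : ℕ} (h : inV0 j = true) : J.χ j ∈ N1 J := by
  simp only [inV0, Bool.and_eq_true, ble_iff, beq_iff] at h
  have k := xorC_induction (fun a => a < 2048 ∧ J.χ a ∈ N1 J) ⟨by norm_num, by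
      rw [J.χ_zero]; exact one_mem _⟩
    (fun a b ha hb => ⟨xor_lt11 ha.1 hb.1, J.χ_mul ha.1 hb.1 ▸ mul_mem ha.2 hb.2⟩)
    (fld 16 mV0) (mv mV0i j) 12 (fun i hi => by
      have k := of_allB chk_W.2.2.2.2.2.2.1 hi
      simp only [force_eq, Bool.and_eq_true, Bool.or_eq_true, ble_iff, anyL_iff, beq_iff] at k
      refine ⟨by omega, ?_⟩
      rcases k.2 with k2 | ⟨v, hv, e⟩
      · exact A_le_N1 ((χ_mem_A J (by omega)).2 k2)
      · obtain ⟨-, g, -, a⟩ := gen_V J hv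
        exact ⟨g, e ▸ a⟩)
  rw [← mvS, ← mv_eq _ (by omega), h.2] at k
  exact k.2

theorem MN_le {x : G} (hx : x ∈ J.M) (hn : x ∈ normalizer (A J : Set G)) : x ∈ N1 J := by
  have h1 : toM (eL 1) ≠ 1 := fun e => by
    have := eL_inj (by norm_num) (by norm_num) (e.trans toM_eL_zero.symm)
    omega
  have hl := (lam_mem_A J).2 (eL_mem (m := 1) (by norm_num))
  have hO : J.μ x ∈ GO := by
    have := μ_A J ((mem_normalizer_iff.1 hn _).1 hl)
    rw [J.μ_conj hx (J.lamM _), J.μ_lam] at this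
    exact mem_GO_of_conj (eL_mem (by norm_num)) h1 this
  obtain ⟨j, hj, e⟩ := J.decompM hx
  have hN : J.χ j ∈ normalizer (A J : Set G) := by
    rw [← mul_inv_eq_iff_eq_mul] at e
    rw [← e]
    exact mul_mem hn (inv_mem (N1_le (lam_GO J hO)))
  have h2 := (mem_normalizer_iff.1 hN _).1 hl
  have e2 := conj_vl J (d := j) (a := 0) hj (by norm_num) (eL_ok (m := 1) (by norm_num))
  rw [J.χ_zero, one_mul, Nat.zero_xor] at e2
  rw [e2, vl_mem J (xor_lt11 hj (ca_lt _ hj))] at h2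
  have k := chk_W.2.2.2.2.1
  rw [force_eq] at k
  have k := of_allB k hj
  rw [← ca_eq, show Nat.xor j (H49.JU.ca (eL 1) j) = j ^^^ H49.JU.ca (eL 1) j from rfl, h2.1] at k
  rw [e]
  exact mul_mem (χ_V0 J (by simpa using k)) (lam_GO J hO)

theorem reach (J : JP G) {a b : ℕ} (ha : a < 1024) (h : Reach (actsOf mv SL7) a b) :
    b < 1024 ∧ ∃ x ∈ N1 J.toJL, x * θ J.toJL a * x⁻¹ = θ J.toJL b := by
  induction h with
  | refl => exact ⟨ha, 1, one_mem _, by simp⟩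
  | tail _ h ih =>
    obtain ⟨f, hf, rfl⟩ := h
    obtain ⟨S, hS, rfl⟩ := mem_actsOf.1 hf
    obtain ⟨h1, x, hx, e⟩ := ih
    have : ∃ y ∈ N1 J.toJL, Cd J.toJL y S := by
      have k := allL_iff.1 chk_gens.2.2.2.2.2.2.1 S hS
      simp only [Bool.or_eq_true, anyL_iff, beq_iff] at k
      rcases k with rfl | ⟨v, hv, rfl⟩ | ⟨v, hv, rfl⟩
      · obtain ⟨c, g, -, a⟩ := gen_s J
        exact ⟨_, ⟨g, a⟩, c⟩
      · obtain ⟨c, g, -, a⟩ := gen_V J.toJL hv
        exact ⟨_, ⟨g, a⟩, c⟩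
      · obtain ⟨c, g, -, a⟩ := gen_G J.toJL hv
        exact ⟨_, ⟨g, a⟩, c⟩
    obtain ⟨y, hy, c⟩ := this
    refine ⟨(c _ h1).1, y * x, mul_mem hy hx, ?_⟩
    rw [← (c _ h1).2, ← e]; group

theorem orb_facts : {b | Reach (actsOf mv SL7) 1 b}.ncard = 155 ∧
    {b | Reach (actsOf mv SL7) 13 b}.ncard = 868 ∧
    (∀ n < 1024, n ≠ 0 → Reach (actsOf mv SL7) 1 n ∨ Reach (actsOf mv SL7) 13 n) ∧
    (Reach (actsOf mv SL7) 1 4 ∧ Reach (actsOf mv SL7) 1 (4 ^^^ 13)) ∧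
    Reach (actsOf mv SL7) 13 12 ∧ Reach (actsOf mv SL7) 13 (12 ^^^ 1) := by
  obtain ⟨t1, n1, s1, k⟩ := orb_true chk_orb
  obtain ⟨t2, n2, s2, k⟩ := orb_true k
  simp only [Bool.and_eq_true, Bool.or_eq_true, beq_iff, allB_iff, s1.mem_iff, s2.mem_iff] at k
  exact ⟨s1.ncard.trans k.1.1, s2.ncard.trans k.1.2, fun n hn h => (k.2.1 n hn).resolve_left h,
    k.2.2.1, k.2.2.2⟩

theorem orb_z (J : JP G) {v : G} (hv : v ∈ A J.toJL) (h : IsConj J.z v) :
    ∃ b, Reach (actsOf mv SL7) 1 b ∧ θ J.toJL b = v := by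
  obtain ⟨n, hn, rfl⟩ := hv
  have h0 : n ≠ 0 := by
    rintro rfl
    rw [θ_zero, isConj_one_left] at h
    exact J.toHyp.z_ne h
  refine ⟨n, (orb_facts.2.2.1 n hn h0).resolve_right fun r => ?_, rfl⟩
  obtain ⟨-, x, -, e⟩ := reach J (by norm_num) r
  rw [← e, conj_cj, θ_13] at h
  exact J.t_B h

theorem orb_t (J : JP G) {v : G} (hv : v ∈ A J.toJL) (h1 : v ≠ 1) (h : ¬ IsConj J.z v) :
    ∃ b, Reach (actsOf mv SL7) 13 b ∧ θ J.toJL b = v := by
  obtain ⟨n, hn, rfl⟩ := hv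
  have h0 : n ≠ 0 := by rintro rfl; exact h1 (θ_zero _)
  refine ⟨n, (orb_facts.2.2.1 n hn h0).resolve_left fun r => ?_, rfl⟩
  obtain ⟨-, x, -, e⟩ := reach J (by norm_num) r
  rw [← e, conj_cj, θ_one] at h
  exact h (IsConj.refl _)

theorem N1_eq (J : JP G) : N1 J.toJL = normalizer (A J.toJL : Set G) := by
  refine le_antisymm N1_le fun n hn => ?_
  have ht : J.t ∈ A J.toJL := θ_13 J.toJL ▸ θ_mem J.toJL (by norm_num)
  obtain ⟨b, r, e⟩ := orb_t J ((mem_normalizer_iff.1 hn _).1 ht)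
    (fun e => J.t_ne (by simpa using e)) (by rw [conj_cj]; exact J.t_B)
  obtain ⟨-, x, hx, e'⟩ := reach J (by norm_num) r
  rw [θ_13, e] at e'
  have h1 : x⁻¹ * n ∈ J.M := J.cent_t (by
    calc x⁻¹ * n * J.t = x⁻¹ * (n * J.t * n⁻¹) * n := by group
      _ = _ := by rw [← e']; group)
  have := mul_mem hx (MN_le J.toJL h1 (mul_mem (inv_mem (N1_le hx)) hn))
  simpa using this

/-- the action on the natural module -/
noncomputable def π : N1 J →* SL5 := MonoidHom.mk' (fun x => x.2.choose) fun x y =>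
  (x * y).2.choose_spec.uniq (x.2.choose_spec.mul y.2.choose_spec)

theorem π_eq {x : N1 J} {g : SL5} (a : Act J x g) : π J x = g := x.2.choose_spec.uniq a

theorem π_ker {x : N1 J} : π J x = 1 ↔ (x : G) ∈ A J := by
  refine ⟨fun h => cent_A J fun k ha => ?_, fun h => π_eq J (act_one h)⟩
  have a : Act J x 1 := h ▸ x.2.choose_spec
  refine A_ind (P := fun a : G => (x : G) * a = a * x) (by simp) (fun b c hb hc => ?_) (fun u v => ?_) ha
  · rw [← mul_assoc, hb, mul_assoc, hc, mul_assoc]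
  · have := a u v
    rw [show (1 : SL5).1 = 1 from rfl, one_mulVec, one_mulVec] at this
    exact mul_inv_eq_iff_eq_mul.1 this

theorem chk_tv : (∀ i : Fin 5, i ≠ 4 → ∃ v ∈ VL, mat v.2.1 = 1 + single i 4 1) ∧
    mat sM = 1 + single 4 3 1 ∧
    ∀ j : Fin 5, j ≠ 3 → j ≠ 4 → ∃ v ∈ gLs, mat v.2.1 = 1 + single 3 j 1 := by
  decide +kernel

theorem π_surj (J : JP G) : Function.Surjective (π J.toJL) := by
  have key : ∀ {x : G} {M : ℕ} {i j : Fin 5}, i ≠ j → (∃ g : SL5, g.1 = mat M ∧ Act J.toJL x g) →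
      mat M = 1 + single i j 1 → H78.tv i j 1 ∈ (π J.toJL).range := by
    rintro x M i j hij ⟨g, e, a⟩ e'
    refine ⟨⟨x, g, a⟩, (π_eq _ a).trans (Subtype.ext ?_)⟩
    rw [e, e', H78.coe_tv hij]
  refine MonoidHom.range_eq_top.1 (eq_top_of_tv (fun i hi => ?_)
    (key (by decide) (gen_s J).2 chk_tv.2.1) fun j h3 h4 => ?_)
  · obtain ⟨v, hv, e⟩ := chk_tv.1 i hi
    exact key hi (gen_V J.toJL hv).2 e
  · obtain ⟨v, hv, e⟩ := chk_tv.2.2 j h3 h4
    exact key (Ne.symm h3) (gen_G J.toJL hv).2 e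

end Cfsg.Agent.H16.A10
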