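import Cfsg.Agent.H16.A10B

/-! Self-centralising elementary abelian subgroups of order `2^10` in groups of Janko-four type. -/

set_option maxRecDepth 100000

namespace Cfsg.Agent.H16.A10

open Cfsg Subgroup H42 H83 H83.J4 H49.JU
open H49 (cj_inv_cj cj_cj_inv cj_mono cj_inf cj_sup cj_mul cj_centralizer)

variable {G : Type*} [Group G] [Finite G]

theorem j0_lt : j0 < 2048 := by decide

theorem exists_compl (J : JP G) : ∃ B : Subgroup G, B ≤ N1 J.toJL ∧ B ⊓ A J.toJL = ⊥ ∧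
    B ⊔ A J.toJL = N1 J.toJL ∧ Nonempty (B ≃* SL5) := by
  set N := N1 J.toJL with hN
  set K := (A J.toJL).subgroupOf N with hK
  have hker : (π J.toJL).ker = K := by
    ext x; rw [MonoidHom.mem_ker, π_ker, mem_subgroupOf]
  haveI : K.Normal := hker ▸ MonoidHom.normal_ker _
  haveI : IsMulCommutative K := ⟨⟨fun a b => Subtype.ext (Subtype.ext
    (comm_of_sq' (A_sq J.toJL) (mem_subgroupOf.1 a.2) (mem_subgroupOf.1 b.2)))⟩⟩
  have cK : Nat.card K = 1024 := by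
    rw [Nat.card_congr (subgroupOfEquivOfLe A_le_N1).toEquiv, card_A]
  have iK : K.index = 9999360 := by
    rw [← hker, index_ker, MonoidHom.range_eq_top.2 (π_surj J), card_top, card_SL5]
  have cN : Nat.card N = 1024 * 9999360 := by rw [← K.card_mul_index, cK, iK]
  set T := H49.cj (GO.map J.lam) (J.χ j0) with hT
  have hT1 : ∀ p, inM p = true → J.χ j0 * J.lam (toM p) * (J.χ j0)⁻¹ =
      J.χ (j0 ^^^ H49.JU.ca p j0) * J.lam (toM p) := fun p hp => by
    have := conj_vl J.toJL (d := j0) (a := 0) j0_lt (by norm_num) hp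
    rwa [J.χ_zero, one_mul, Nat.zero_xor] at this
  have TN : T ≤ N := by
    rintro _ ⟨_, ⟨g, hg, rfl⟩, rfl⟩
    change J.χ j0 * J.lam g * (J.χ j0)⁻¹ ∈ N
    have hg' : g ∈ gen gensO := GO_eq ▸ hg
    refine gen_induction (P := fun g => J.χ j0 * J.lam g * (J.χ j0)⁻¹ ∈ N) (by simp)
      (fun p hp x hx => ?_) hg'
    rw [map_mul, ← conj_mul, hT1 p (inM_gensO p hp)]
    exact mul_mem (mul_mem (χ_V0 J.toJL (allL_iff.1 chk_W.2.2.2.2.2.1 p hp))
      (lam_GO J.toJL (gensO_mem p hp))) hx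
  have TA : T ⊓ A J.toJL = ⊥ := by
    rw [eq_bot_iff]
    rintro _ ⟨⟨_, ⟨g, hg, rfl⟩, rfl⟩, h⟩
    change J.χ j0 * J.lam g * (J.χ j0)⁻¹ ∈ A J.toJL at h
    change J.χ j0 * J.lam g * (J.χ j0)⁻¹ ∈ (⊥ : Subgroup G)
    obtain ⟨p, hp, rfl⟩ := exists_toM g
    have h' := h
    rw [hT1 p hp, vl_mem _ (xor_lt11 j0_lt (ca_lt _ j0_lt))] at h'
    obtain ⟨m, hm, e⟩ := exists_eL h'.2
    obtain rfl := toM_inj (eL_ok hm) hp e
    by_cases h0 : m = 0
    · rw [h0, toM_eL_zero]; simp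
    · exact absurd (h'.1.symm.trans (W_facts hm h0).1) (by simp)
  have cT : Nat.card (T.subgroupOf N) = 322560 := by
    rw [Nat.card_congr (subgroupOfEquivOfLe TN).toEquiv, H49.card_cj,
      card_map_of_injective J.lam_inj, ← top_inf_eq GO, card_Q24_1]
  have TK : T.subgroupOf N ⊓ K = ⊥ := by
    rw [eq_bot_iff]
    rintro x ⟨h1, h2⟩
    have : (x : G) ∈ T ⊓ A J.toJL := ⟨h1, h2⟩
    rw [TA] at this
    exact mem_bot.2 (Subtype.ext this)
  have cU : 322560 ∣ Nat.card ↥(K ⊔ T.subgroupOf N) ∧ 1024 * 1024 ∣ Nat.card ↥(K ⊔ T.subgroupOf N) := by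
    have h1 := card_mul_le (A := K) (B := T.subgroupOf N) (C := K ⊔ T.subgroupOf N) le_sup_left
      le_sup_right
    have h2 : Nat.card ↥(K ⊔ T.subgroupOf N) = Nat.card K * Nat.card (T.subgroupOf N) := by
      have h3 : (K.relIndex (K ⊔ T.subgroupOf N)) = K.relIndex (T.subgroupOf N) :=
        relIndex_sup_left _ _
      have h4 : K.relIndex (T.subgroupOf N) = Nat.card (T.subgroupOf N) := by
        rw [← inf_relIndex_left, TK, relIndex_bot_left]
      have h5 := (K.subgroupOf (K ⊔ T.subgroupOf N)).card_mul_index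
      rw [Nat.card_congr (subgroupOfEquivOfLe le_sup_left).toEquiv] at h5
      rw [← h5, ← h4, ← h3]; rfl
    rw [h2, cK, cT]; norm_num
  obtain ⟨H, hH⟩ := H2.gaschutz_exists K (K ⊔ T.subgroupOf N) le_sup_left (by
    rw [cK, show 1024 = 2 ^ 10 by norm_num]
    refine Nat.Coprime.pow_left _ ((Nat.Prime.coprime_iff_not_dvd Nat.prime_two).2 fun h => ?_)
    have h1 := mul_dvd_mul cU.2 h
    rw [card_mul_index, cN] at h1
    norm_num at h1) (T.subgroupOf N) le_sup_right TK rfl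
  refine ⟨H.map N.subtype, map_subtype_le _, ?_, ?_, ⟨?_⟩⟩
  · rw [eq_bot_iff]
    rintro _ ⟨⟨x, hx, rfl⟩, h⟩
    have : x ∈ K ⊓ H := ⟨h, hx⟩
    rw [hH.disjoint.eq_bot, mem_bot] at this
    rw [this]; exact one_mem _
  · have := congrArg (map N.subtype) hH.sup_eq_top
    rwa [Subgroup.map_sup, hK, map_subgroupOf_eq_of_le A_le_N1, ← MonoidHom.range_eq_map,
      range_subtype, sup_comm] at this
  · refine (H.equivMapOfInjective N.subtype N.subtype_injective).symm.trans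
      (MulEquiv.ofBijective ((π J.toJL).comp H.subtype) ⟨?_, fun g => ?_⟩)
    · rw [injective_iff_map_eq_one]
      intro x hx
      have : (x : N) ∈ K ⊓ H := ⟨hker ▸ hx, x.2⟩
      rw [hH.disjoint.eq_bot, mem_bot] at this
      exact Subtype.ext this
    · obtain ⟨y, rfl⟩ := π_surj J g
      obtain ⟨⟨k, h⟩, e⟩ := hH.surjective y
      refine ⟨h, ?_⟩
      have hk : π J.toJL k = 1 := (π_ker _).2 (mem_subgroupOf.1 k.2)
      rw [← e]
      change π J.toJL h = π J.toJL (k * h)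
      rw [map_mul, hk, one_mul]

/-- the conclusions about the normaliser -/
def Good (A : Subgroup G) : Prop :=
  ((∃ B : Subgroup G, B ≤ normalizer (A : Set G) ∧ B ⊓ A = ⊥ ∧ B ⊔ A = normalizer (A : Set G) ∧
      Nonempty (B ≃* SL5)) ∧
    ∀ W : Subgroup G, W ≤ A → normalizer (A : Set G) ≤ normalizer (W : Set G) → W = ⊥ ∨ W = A) ∧
  ∃ a b : G, a ∈ A ∧ b ∈ A ∧ Set.ncard {v : G | ∃ n ∈ normalizer (A : Set G), n * a * n⁻¹ = v} = 155 ∧
    Set.ncard {v : G | ∃ n ∈ normalizer (A : Set G), n * b * n⁻¹ = v} = 868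

theorem good_A (J : JP G) : Good (A J.toJL) := by
  have hz : J.z ∈ A J.toJL := θ_one J.toJL ▸ θ_mem J.toJL (by norm_num)
  have ht : J.t ∈ A J.toJL := θ_13 J.toJL ▸ θ_mem J.toJL (by norm_num)
  have inj : ∀ a < 1024, Set.InjOn (θ J.toJL) {b | Reach (actsOf mv SL7) a b} :=
    fun a ha b hb c hc e => θ_inj _ (reach J ha hb).1 (reach J ha hc).1 e
  rw [Good, ← N1_eq]
  refine ⟨⟨exists_compl J, fun W hW hn => ?_⟩, J.z, J.t, hz, ht, ?_, ?_⟩
  · have mv : ∀ {a b}, a < 1024 → Reach (actsOf mv SL7) a b → (θ J.toJL a ∈ W ↔ θ J.toJL b ∈ W) := by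
      intro a b ha r
      obtain ⟨-, x, hx, e⟩ := reach J ha r
      rw [← e]; exact mem_normalizer_iff.1 (hn hx) _
    obtain ⟨-, -, o1, ⟨o2, o3⟩, o4, o5⟩ := orb_facts
    have zt : θ J.toJL 1 ∈ W ↔ θ J.toJL 13 ∈ W := by
      constructor
      · intro h
        have := mul_mem ((mv (by norm_num) o2).1 h) ((mv (by norm_num) o3).1 h)
        rwa [θ_mul _ (by norm_num) (by decide)] at this
      · intro h
        have := mul_mem ((mv (by norm_num) o4).1 h) ((mv (by norm_num) o5).1 h)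
        rwa [θ_mul _ (by norm_num) (by decide)] at this
    have all : ∀ n < 1024, n ≠ 0 → (θ J.toJL n ∈ W ↔ θ J.toJL 1 ∈ W) := by
      intro n hn h0
      rcases o1 n hn h0 with r | r
      · exact (mv (by norm_num) r).symm
      · exact (mv (by norm_num) r).symm.trans zt.symm
    by_cases h1 : θ J.toJL 1 ∈ W
    · refine Or.inr (le_antisymm hW ?_)
      rintro _ ⟨n, hn, rfl⟩
      by_cases h0 : n = 0
      · rw [h0, θ_zero]; exact one_mem _
      · exact (all n hn h0).2 h1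
    · refine Or.inl (eq_bot_iff.2 fun x hx => ?_)
      obtain ⟨n, hn, rfl⟩ := hW hx
      by_cases h0 : n = 0
      · rw [h0, θ_zero]; exact one_mem _
      · exact absurd ((all n hn h0).1 hx) h1
  · rw [← orb_facts.1, ← (inj 1 (by norm_num)).ncard_image]
    congr 1
    ext v
    constructor
    · rintro ⟨n, hn, rfl⟩
      exact orb_z J ((mem_normalizer_iff.1 (N1_le hn) _).1 hz) (isConj_iff.2 ⟨n, rfl⟩)
    · rintro ⟨b, r, rfl⟩
      have := (reach J (by norm_num) r).2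
      rwa [θ_one] at this
  · rw [← orb_facts.2.1, ← (inj 13 (by norm_num)).ncard_image]
    congr 1
    ext v
    constructor
    · rintro ⟨n, hn, rfl⟩
      exact orb_t J ((mem_normalizer_iff.1 (N1_le hn) _).1 ht)
        (fun e => J.t_ne (by simpa using e)) (by rw [conj_cj]; exact J.t_B)
    · rintro ⟨b, r, rfl⟩
      have := (reach J (by norm_num) r).2
      rwa [θ_13] at this

omit [Finite G] in
theorem Good.cj {A : Subgroup G} (h : Good A) (g : G) : Good (H49.cj A g) := by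
  obtain ⟨⟨⟨B, b1, b2, b3, ⟨e⟩⟩, h2⟩, a, b, ha, hb, c1, c2⟩ := h
  have key : ∀ a : G, Set.ncard {v : G | ∃ n ∈ H49.cj (normalizer (A : Set G)) g,
      n * (g * a * g⁻¹) * n⁻¹ = v} = Set.ncard {v : G | ∃ n ∈ normalizer (A : Set G), n * a * n⁻¹ = v} := by
    intro a
    rw [← Set.ncard_image_of_injective {v : G | ∃ n ∈ normalizer (A : Set G), n * a * n⁻¹ = v}
      (MulAut.conj g).injective]
    congr 1
    ext v
    constructor
    · rintro ⟨n, hn, rfl⟩
      exact ⟨_, ⟨_, H49.mem_cj.1 hn, rfl⟩, by rw [MulAut.conj_apply]; group⟩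
    · rintro ⟨_, ⟨n, hn, rfl⟩, rfl⟩
      exact ⟨_, H49.conj_mem_cj g hn, by rw [MulAut.conj_apply]; group⟩
  rw [Good, ← cj_normalizer]
  refine ⟨⟨⟨H49.cj B g, cj_mono b1 g, by rw [← cj_inf, b2, cj_bot], by rw [← cj_sup, b3],
    ⟨(cjEquiv B g).symm.trans e⟩⟩, fun W hW hn => ?_⟩, _, _, H49.conj_mem_cj g ha, H49.conj_mem_cj g hb,
    (key a).trans c1, (key b).trans c2⟩
  have h3 := cj_mono hW g⁻¹
  have h4 := cj_mono hn g⁻¹
  rw [cj_inv_cj] at h3 h4
  rw [cj_normalizer] at h4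
  rcases h2 _ h3 h4 with h | h
  · left; rw [← cj_cj_inv W g, h, cj_bot]
  · right; rw [← cj_cj_inv W g, h]

/-- The case of a subgroup over the Sylow subgroup. -/
theorem conj_A_aux (J : JL G) {E : Subgroup G} (hM : E ≤ J.M) (hP : ∀ x ∈ E, J.μ x ∈ P24)
    (sq : ∀ x ∈ E, x * x = 1) (hc : Nat.card E = 1024) (hV : ¬ E ≤ J.V) :
    ∃ u, H49.cj E u = A J := by
  classical
  let F : Subgroup M24 := (E.subgroupOf J.M).map J.μ0
  have hF : ∀ g, g ∈ F ↔ ∃ x ∈ E, J.μ x = g := fun g =>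
    ⟨fun ⟨x, hx, e⟩ => ⟨x, hx, (J.μ_coe x).trans e⟩,
      fun ⟨x, hx, e⟩ => ⟨⟨x, hM hx⟩, hx, (J.μ_eq (hM hx)).symm.trans e⟩⟩
  let T : Finset ℕ := (Finset.range 2048).filter fun j => J.χ j ∈ E
  have hT : ∀ j, j ∈ T ↔ j < 2048 ∧ J.χ j ∈ E := fun j => by simp [T]
  have fix : ∀ x ∈ E, ∀ p, inM p = true → J.μ x = toM p → ∀ j < 2048, J.χ j ∈ E →
      H49.JU.ca p j = j := by
    intro x hx p hp e j hj h
    have := conj_ca J.toJZ (hM hx) hp e hj
    rw [comm_of_sq' sq hx h, mul_inv_cancel_right] at this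
    exact (J.χ_inj hj (ca_lt p hj) this).symm
  have cE : 1024 ≤ Nat.card F * T.card := by
    have h1 := (J.μ0.comp (inclusion hM)).ker.card_mul_index
    rw [index_ker, hc] at h1
    have h2 : (J.μ0.comp (inclusion hM)).range = F := by
      ext g
      rw [hF]
      exact ⟨fun ⟨x, e⟩ => ⟨x, x.2, (J.μ_eq (hM x.2)).trans e⟩,
        fun ⟨x, hx, e⟩ => ⟨⟨x, hx⟩, (J.μ_eq (hM hx)).symm.trans e⟩⟩
    rw [← h1, h2, mul_comm]
    refine Nat.mul_le_mul_left _ ?_
    rw [← SetLike.coe_sort_coe, Nat.card_coe_set_eq, ← Set.ncard_coe_finset,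
      ← Set.ncard_image_of_injective _ E.subtype_injective]
    refine (Set.ncard_le_ncard (t := J.χ '' (T : Set ℕ)) ?_ (Set.toFinite _)).trans
      (Set.ncard_image_le (Set.toFinite _))
    rintro _ ⟨x, hx, rfl⟩
    have : J.μ x = 1 := (J.μ_eq (hM x.2)).trans hx
    obtain ⟨j, hj, e⟩ := J.exists_χ ((J.μ_eq_one (hM x.2)).1 this)
    exact ⟨j, (hT j).2 ⟨hj, e ▸ x.2⟩, e⟩
  have hR : F ≤ RB := by
    refine offender (fun g hg => ?_) (fun g hg => ?_) T (fun j hj => ((hT j).1 hj).1)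
      (fun p hp h j hj => ?_) cE
    · obtain ⟨x, hx, rfl⟩ := (hF g).1 hg; exact hP x hx
    · obtain ⟨x, hx, rfl⟩ := (hF g).1 hg
      rw [← J.μ_mul (hM hx) (hM hx), sq x hx, J.μ_one]
    · obtain ⟨x, hx, e⟩ := (hF _).1 h
      exact fix x hx p hp e j ((hT j).1 hj).1 ((hT j).1 hj).2
  have dc : ∀ x ∈ E, ∃ j < 2048, ∃ m < 16, J.μ x = toM (eL m) ∧ x = J.χ j * J.lam (toM (eL m)) ∧
      H49.JU.ca (eL m) j = j := by
    intro x hx
    obtain ⟨m, hm, e⟩ := exists_eL (hR ((hF _).2 ⟨x, hx, rfl⟩))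
    obtain ⟨j, hj, e'⟩ := J.decompM (hM hx)
    rw [← e] at e'
    refine ⟨j, hj, m, hm, e.symm, e', fix_of_comm J hj (eL_ok hm) ?_⟩
    have := sq x hx
    rw [e'] at this
    exact (J.comm_of_sq_vl (J.χ_mem hj) (RB_sq (eL_mem hm)) this).symm
  obtain ⟨x1, hx1, n1⟩ := SetLike.not_le_iff_exists.1 hV
  obtain ⟨j1, hj1, m1, hm1, e1, -, -⟩ := dc x1 hx1
  have m10 : m1 ≠ 0 := by
    rintro rfl
    exact n1 ((J.μ_eq_one (hM hx1)).1 (e1.trans toM_eL_zero))
  have cT : T.card ≤ 128 := by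
    refine le_trans ?_ (W_facts hm1 m10).2.1
    rw [cnt_eq_card]
    refine Finset.card_le_card fun j hj => ?_
    obtain ⟨a, b⟩ := (hT j).1 hj
    exact Finset.mem_filter.2 ⟨Finset.mem_range.2 a, beq_iff.2 (fix x1 hx1 _ (eL_ok hm1) e1 j a b)⟩
  have hW : ∀ j < 2048, J.χ j ∈ E → inW j = true := by
    have h3 : ∃ g ∈ F, g ≠ 1 ∧ g ≠ J.μ x1 := by
      by_contra hn
      push Not at hn
      have : Nat.card F ≤ 2 := by
        rw [← SetLike.coe_sort_coe, Nat.card_coe_set_eq]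
        refine (Set.ncard_le_ncard (t := {1, J.μ x1}) (fun g hg => ?_) (Set.toFinite _)).trans
          ((Set.ncard_insert_le _ _).trans (by simp))
        by_cases h : g = 1
        · exact Or.inl h
        · exact Or.inr (hn g hg h)
      have := cE.trans (Nat.mul_le_mul this cT)
      omega
    obtain ⟨g, hg, g1, g2⟩ := h3
    obtain ⟨x2, hx2, rfl⟩ := (hF g).1 hg
    obtain ⟨j2, hj2, m2, hm2, e2, -, -⟩ := dc x2 hx2
    intro j hj h
    exact (W_facts hm1 m10).2.2.2 m2 hm2 (fun e => g1 (by rw [e2, e, toM_eL_zero]))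
      (fun e => g2 (by rw [e1, e2, e])) j hj (fix x1 hx1 _ (eL_ok hm1) e1 j hj h)
      (fix x2 hx2 _ (eL_ok hm2) e2 j hj h)
  have fin : ∀ u, H49.cj E u ≤ A J → ∃ u, H49.cj E u = A J := fun u h =>
    ⟨u, eq_of_le_of_card_ge h (by rw [H49.card_cj, hc, card_A])⟩
  by_cases hcase : ∃ x ∈ E, x ∉ J.V ∧ x ∈ A J
  · obtain ⟨x, hx, x1, x2⟩ := hcase
    obtain ⟨j, hj, m, hm, e, e', -⟩ := dc x hx
    have m0 : m ≠ 0 := by
      rintro rfl
      exact x1 ((J.μ_eq_one (hM hx)).1 (e.trans toM_eL_zero))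
    have jW : inW j = true := ((vl_mem J hj).1 (e' ▸ x2)).1
    refine fin 1 ?_
    rw [H49.cj_one]
    intro y hy
    obtain ⟨k, hk, n, hn, f, f', f''⟩ := dc y hy
    by_cases n0 : n = 0
    · rw [n0, toM_eL_zero, map_one, mul_one] at f'
      rw [f']; exact (χ_mem_A J hk).2 (hW k hk (f' ▸ hy))
    by_cases nm : n = m
    · have h1 : J.μ (x * y) = 1 := by
        rw [J.μ_mul (hM hx) (hM hy), e, f, nm, RB_sq (eL_mem hm)]
      obtain ⟨i, hi, ei⟩ := J.exists_χ ((J.μ_eq_one (hM (mul_mem hx hy))).1 h1)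
      have h2 : x * y ∈ A J := ei ▸ (χ_mem_A J hi).2 (hW i hi (ei ▸ mul_mem hx hy))
      exact ((A J).mul_mem_cancel_left x2).1 h2
    · have c := comm_of_sq' sq hx hy
      rw [e', f'] at c
      have c2 := (comm_M J hj hk (eL_ok hm) (eL_ok hn) c).2
      rw [ca_eL hn hj jW, Nat.xor_comm k j] at c2
      have c3 : H49.JU.ca (eL m) k = k := Nat.xor_right_injective c2
      rw [f']
      exact (vl_mem J hk).2 ⟨(W_facts hm m0).2.2.2 n hn n0 nm k hk c3 f'', eL_mem hn⟩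
  · refine fin (J.χ j0) ?_
    rintro _ ⟨y, hy, rfl⟩
    change J.χ j0 * y * (J.χ j0)⁻¹ ∈ A J
    obtain ⟨k, hk, n, hn, f, f', f''⟩ := dc y hy
    by_cases n0 : n = 0
    · rw [n0, toM_eL_zero, map_one, mul_one] at f'
      rw [f', J.V_comm (J.χ_mem j0_lt) (J.χ_mem hk), mul_inv_cancel_right]
      exact (χ_mem_A J hk).2 (hW k hk (f' ▸ hy))
    · have h1 : y ∉ J.V := fun h => n0 (eL_inj hn (by norm_num)
        (by rw [← f, J.μ_V h, toM_eL_zero]))
      have h2 : ¬ inW k = true := fun h =>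
        hcase ⟨y, hy, h1, by rw [f']; exact (vl_mem J hk).2 ⟨h, eL_mem hn⟩⟩
      rw [f', conj_vl J j0_lt hk (eL_ok hn)]
      exact (vl_mem J (xor_lt11 hk (xor_lt11 j0_lt (ca_lt _ j0_lt)))).2
        ⟨((W_facts hn n0).2.2.1 k hk f'').resolve_left h2, eL_mem hn⟩

theorem conj_A (J : JL G) {E : Subgroup G} (sq : ∀ x ∈ E, x * x = 1) (hc : Nat.card E = 1024)
    (hs : centralizer (E : Set G) = E) : ∃ g, H49.cj (A J) g = E := by
  obtain ⟨g, hg⟩ := J.exists_conj_M (isPGroup_of_sq sq)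
  have sq1 := cj_sq sq g
  obtain ⟨k, -, hk⟩ := exists_conj_le_of_isPGroup (p := 2) (a := 10) ⊤ P24
    (((H49.cj E g).subgroupOf J.M).map J.μ0) le_top (by rw [card_P24]; norm_num)
    (by rw [card_top, card_M24]; norm_num) le_top
    (((isPGroup_of_sq sq1).comap_subtype.map _))
  have hM : H49.cj E (J.lam k * g) ≤ J.M := by rw [cj_mul]; exact cj_le_of_mem hg (J.lamM k)
  obtain ⟨u, hu⟩ := conj_A_aux J hM (by
    rw [cj_mul]
    rintro _ ⟨x, hx, rfl⟩
    change J.μ (J.lam k * x * (J.lam k)⁻¹) ∈ P24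
    rw [J.μ_conj (J.lamM k) (hg hx), J.μ_lam]
    exact hk _ ⟨⟨x, hg hx⟩, hx, (J.μ_eq (hg hx)).symm⟩) (cj_sq sq _) (by rw [H49.card_cj, hc]) (fun h => by
    have h1 : J.V ≤ centralizer (H49.cj E (J.lam k * g) : Set G) := fun v hv =>
      mem_centralizer_iff.2 fun x hx => J.V_comm (h hx) hv
    rw [← cj_centralizer, hs] at h1
    have := card_le_of_le h1
    rw [J.card_V, H49.card_cj, hc] at this
    omega)
  exact ⟨(u * (J.lam k * g))⁻¹, by rw [← hu, ← cj_mul E u, cj_inv_cj]⟩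

theorem main [IsSimpleGroup G] (hG : ¬ IsMulCommutative G) (hJ : IsOfJankoFourType G) :
    ∃ A : Subgroup G, (IsElementaryAbelian 2 A ∧ Nat.card A = 2 ^ 10 ∧ centralizer (A : Set G) = A) ∧
      Good A ∧ ∀ E : Subgroup G, IsElementaryAbelian 2 E → Nat.card E = 2 ^ 10 →
        centralizer (E : Set G) = E → ∃ g, H49.cj A g = E := by
  obtain ⟨z, P, h⟩ := hJ
  obtain ⟨J0, -, -⟩ := exists_JL hG h
  obtain ⟨J, -⟩ := exists_JP J0
  refine ⟨A J.toJL, ⟨⟨⟨⟨fun a b => Subtype.ext (comm_of_sq' (A_sq _) a.2 b.2)⟩⟩, fun a ha => by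
    rw [pow_two]; exact A_sq _ a ha⟩, card_A _, centralizer_A _⟩, good_A J, fun E h1 h2 h3 =>
    conj_A J.toJL (fun x hx => by rw [← pow_two]; exact h1.2 x hx) h2 h3⟩

end Cfsg.Agent.H16.A10
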