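import Cfsg.Agent.H45.OnDefs

/-! A component with trivially intersecting conjugates that fixes `y` normalises the components
at `y` (piece TIM). -/

set_option autoImplicit false

namespace Cfsg.Agent.H16.OnTim

open Cfsg.Agent.H45.On

universe u v

/-- the elements that normalise each member of a family -/
def nf {G : Type u} [Group G] (P : Subgroup G → Prop) : Subgroup G where
  carrier := {g | ∀ T, P T → cj g T = T}
  mul_mem' ha hb T hT := by rw [cj_mul, hb T hT, ha T hT]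
  one_mem' T _ := cj_one T
  inv_mem' {g} ha T hT := by
    conv_lhs => rw [← ha T hT]
    exact cj_inv_cj g T

theorem tim (sim : SimStmt.{u}) (idx : Idx5Stmt.{u}) : TimStmt.{u, v} := by
  intro G Ω _ _ _ _ S _ x y M M' hM hti hfx hM'
  obtain ⟨-, -, s3, -, s5, -⟩ := sim M (S.simple hM) (S.nab hM)
  let R : Subgroup G := nf (S.C y)
  have mR : ∀ g, g ∈ R ↔ ∀ T, S.C y T → cj g T = T := fun _ => Iff.rfl
  have cy : ∀ a ∈ M, ∀ T, S.C y T → S.C y (cj a T) := fun a ha T hT => by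
    have := S.conj a hT
    rwa [hfx a ha] at this
  have lR : ∀ T, S.C y T → T ≤ R := fun T hT s hs => (mR s).2 fun T₂ h₂ => by
    by_cases e : T = T₂
    · exact cj_self (e ▸ hs)
    · exact cj_of_comm (S.comm hT h₂ e s hs)
  have nR : ∀ a ∈ M, ∀ r ∈ R, a * r * a⁻¹ ∈ R := fun a ha r hr => (mR _).2 fun T hT => by
    rw [cj_mul, cj_mul, (mR r).1 hr _ (cy _ (M.inv_mem ha) T hT), cj_cj_inv]
  by_cases hle : M ≤ R
  · exact fun a ha => (mR a).1 (hle ha) M' hM'
  exfalso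
  obtain ⟨t, ht, ⟨tt, t1⟩, htR⟩ : ∃ t ∈ M, Inv t ∧ t ∉ R := by
    by_contra h
    exact hle (s3 R fun t ht hi => by_contra fun hn => h ⟨t, ht, hi, hn⟩)
  have hbot : M ⊓ R = ⊥ := by
    refine (s5 (M ⊓ R) inf_le_left fun s hs h hh => Subgroup.mem_inf.2
      ⟨M.mul_mem (M.mul_mem hs hh.1) (M.inv_mem hs), nR s hs h hh.2⟩).resolve_right fun h => ?_
    exact hle (inf_eq_left.1 h)
  obtain ⟨T, hT, hne⟩ : ∃ T, S.C y T ∧ cj t T ≠ T := by
    by_contra h
    exact htR ((mR t).2 fun T hT => by_contra fun hn => h ⟨T, hT, hn⟩)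
  have hT' := cy t ht T hT
  obtain ⟨s, hs, s1⟩ : ∃ s ∈ T, s ≠ 1 := by
    by_contra h
    refine S.nab hT fun a ha b _ => ?_
    have : a = 1 := by_contra fun hn => h ⟨a, ha, hn⟩
    rw [this, one_mul, mul_one]
  have hs' : t * s * t⁻¹ ∈ cj t T := cj_mem hs
  have dR : s * (t * s * t⁻¹) ∈ R := R.mul_mem (lR T hT hs) (lR _ hT' hs')
  have dt : t * (s * (t * s * t⁻¹)) = s * (t * s * t⁻¹) * t := by
    have c := S.comm hT' hT hne _ hs' s hs
    have ti : t⁻¹ = t := inv_eq_of_mul_eq_one_right tt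
    calc t * (s * (t * s * t⁻¹)) = (t * s * t⁻¹) * ((t * t) * s) * t⁻¹ := by group
      _ = (t * s * t⁻¹) * s * t⁻¹ := by rw [tt, one_mul]
      _ = _ := by rw [c, ti]
  generalize hd : s * (t * s * t⁻¹) = d at dR dt
  have dM : cj d M = M := by
    by_contra h
    have : t ∈ M ⊓ cj d M := Subgroup.mem_inf.2
      ⟨ht, by rw [mem_cj, mul_assoc, dt, inv_mul_cancel_left]; exact ht⟩
    rw [hti d h] at this
    exact t1 this
  have dc : ∀ a ∈ M, a * d * a⁻¹ = d := fun a ha => by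
    have h1 : d * a⁻¹ * d⁻¹ ∈ M := dM ▸ cj_mem (M.inv_mem ha)
    have h2 : a * d * a⁻¹ * d⁻¹ ∈ M ⊓ R := Subgroup.mem_inf.2
      ⟨by simpa only [mul_assoc] using M.mul_mem ha h1, R.mul_mem (nR a ha d dR) (R.inv_mem dR)⟩
    rw [hbot] at h2
    exact mul_inv_eq_one.1 h2
  have two : ∀ a ∈ M, cj a T = T ∨ cj a T = cj t T := fun a ha => by
    by_contra h
    rw [not_or] at h
    have hT'' := cy a ha T hT
    obtain ⟨-, -, -, -, -, z⟩ := sim _ (S.simple hT'') (S.nab hT'')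
    have c1 := S.comm hT hT'' (Ne.symm h.1) s hs
    have c2 := S.comm hT' hT'' (Ne.symm h.2) _ hs'
    have c3 := S.comm (cy a ha _ hT') hT'' (fun e => hne (cj_inj e)) _ (cj_mem (g := a) hs')
    have e : a * s * a⁻¹ = 1 := z _ (cj_mem hs) fun m hm => by
      have k1 : d * m = m * d := by
        rw [← hd, mul_assoc, c2 m hm, ← mul_assoc, c1 m hm, mul_assoc]
      have k2 : a * s * a⁻¹ = d * (a * (t * s * t⁻¹) * a⁻¹)⁻¹ := by
        conv_rhs => rw [← dc a ha, ← hd]
        group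
      have k3 : (a * (t * s * t⁻¹) * a⁻¹)⁻¹ * m = m * (a * (t * s * t⁻¹) * a⁻¹)⁻¹ :=
        (Commute.inv_left (c3 m hm)).eq
      rw [k2, mul_assoc, k3, ← mul_assoc, k1, mul_assoc]
    exact s1 (by simpa using e)
  obtain ⟨f, hf, hinj⟩ := idx M (S.simple hM) (S.nab hM) (nf (· = T))
    fun h => hne (h ht T rfl)
  have key : ∀ i j, cj (f i) T = cj (f j) T → i = j := fun i j e => hinj i j fun T₂ h₂ => by
    rw [h₂, cj_mul, ← e, cj_inv_cj]
  rcases two _ (hf 0) with a | a <;> rcases two _ (hf 1) with b | b <;>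
    rcases two _ (hf 2) with c | c
  all_goals first
    | exact absurd (key 0 1 (a.trans b.symm)) (by decide)
    | exact absurd (key 0 2 (a.trans c.symm)) (by decide)
    | exact absurd (key 1 2 (b.trans c.symm)) (by decide)

end Cfsg.Agent.H16.OnTim
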