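import Cfsg.Agent.H35.RfQ

/-! Project RF: `R` against `V` in the cocode case (piece TB). -/

set_option autoImplicit false

namespace Cfsg.Agent.H16.RfTb

open Cfsg Subgroup Cfsg.Agent.H42 Cfsg.Agent.H18.Rf Cfsg.Agent.H35.RF
open Cfsg.Agent.H48 (IsWord)
open scoped commutatorElement Pointwise

universe u

/-- representatives of `V / W` -/
def cc (j : ℕ) : ℕ := fld 24 1991564194182641279150556746586756400382968939053917414581323539377433844922319202124631312635007404200572223488 j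

/-- the commutator lies in `⟨z⟩` -/
noncomputable def K (j y : ℕ) : Bool :=
  force (Nat.xor (img y (cc j)) (cc j)) fun d => isCode d || isCode (Nat.xor d 8388615)

theorem cc_lt (j : ℕ) : cc j < 2 ^ 24 := fld_lt _ _ _

theorem inM_gF : ∀ g ∈ gF, inM g = true := by decide +kernel

theorem chk1 : ∀ j < 16, pc (cc j) % 2 = 0 := by decide +kernel

theorem chk2 : ∀ i < 16, ∀ j < 16, (∀ a < 6, ∀ b < 6,
    pc (Nat.land (Nat.xor (cc i) (cc j)) (fld 24 sext0 a)) % 2 =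
      pc (Nat.land (Nat.xor (cc i) (cc j)) (fld 24 sext0 b)) % 2) → i = j := by decide +kernel

theorem chk3 : ∀ j < 16,
    orbCnt (actsOf pmul gF) pid 100 (K j) (if j = 0 then 64 else 4) = true := by decide +kernel

theorem chk4 : orbAll (actsOf pmul gF) pid 100 (fun y => Nat.beq y pid ||
    allB (fun i => allB (fun j => Nat.beq i 0 || Nat.beq j 0 || Nat.beq i j || !(K i y) || !(K j y))
      16) 16) = true := by decide +kernel

theorem even_cc {j : ℕ} (hj : j < 16) : Even (toSet (cc j)).card := by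
  rw [card_toSet (cc_lt j), Nat.even_iff]
  exact chk1 j hj

theorem even_symm {c d : Finset GolayPt} (hc : Even c.card) (hd : Even d.card) :
    Even (symmDiff c d).card := by
  have := card_symmDiff_add c d
  rw [Nat.even_iff] at *
  omega

/-- the condition on the Mathieu group -/
def P (j : ℕ) (x : M24) : Prop :=
  IsWord (symmDiff (x • toSet (cc j)) (toSet (cc j))) ∨
    IsWord (symmDiff (symmDiff (x • toSet (cc j)) (toSet (cc j))) t0)

theorem P_iff (j y : ℕ) (hy : inM y = true) : P j (toM y) ↔ K j y = true := by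
  have h := xor_lt (img_lt (inM_isPerm hy) (cc j)) (cc_lt j)
  rw [P, K, force_eq, toM_smul_toSet hy, ← toSet_xor, t0, ← toSet_xor, Bool.or_eq_true,
    ← toSet_mem_codeSets_iff h, ← toSet_mem_codeSets_iff (xor_lt h (by norm_num))]
  rfl

theorem ncard_P {j : ℕ} (hj : j < 16) :
    {x | x ∈ gen gF ∧ P j x}.ncard = if j = 0 then 64 else 4 :=
  ncard_gen_filter inM_gF (chk3 j hj) (P j) (P_iff j)

section
variable {G : Type u} [Group G] [Finite G] {V : Subgroup G} {ρ : NN V →* M24}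

theorem ncard_pre (st : St V ρ) (T : Set M24) :
    {r : G | ∃ h : r ∈ NN V, ρ ⟨r, h⟩ ∈ T}.ncard ≤ T.ncard * 2 ^ 11 := by
  choose σ hσ using st.sur
  have h1 : {r : G | ∃ h : r ∈ NN V, ρ ⟨r, h⟩ ∈ T} = Subtype.val '' {n : NN V | ρ n ∈ T} := by
    ext r
    exact ⟨fun ⟨h, hr⟩ => ⟨⟨r, h⟩, hr, rfl⟩, fun ⟨n, hn, e⟩ => e ▸ ⟨n.2, hn⟩⟩
  have h2 : (V : Set G).ncard = 2 ^ 11 := st.card
  rw [h1, ← h2, ← Set.ncard_prod]
  refine (Set.ncard_image_le (Set.toFinite _)).trans (Set.ncard_le_ncard_of_injOn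
    (fun n => (ρ n, (((σ (ρ n))⁻¹ * n : NN V) : G))) (fun n hn => ⟨hn, ?_⟩) fun a _ b _ h => ?_)
  · exact (st.ker ((σ (ρ n))⁻¹ * n)).1 (by rw [map_mul, map_inv, hσ, inv_mul_cancel])
  · obtain ⟨e1, e2⟩ := Prod.mk.inj h
    rw [e1] at e2
    exact mul_left_cancel (Subtype.ext e2)

end

theorem tb (kit : KitTStmt.{u}) (hva : VaTStmt.{u}) (hta : TaStmt.{u}) : TbStmt.{u} := by
  intro G _ _ V ρ ψ ω tz
  obtain ⟨-, kW, kz, -⟩ := kit G V ρ ψ tz.st tz.tod
  have va : Va V (ψ t0) (WT ψ) (RT V ρ) := hva G V ρ ψ ω tz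
  have ta : Ta V (ψ t0) (WT ψ) (RT V ρ) ω := hta G V ρ ψ ω tz
  have td := tz.tod
  have inv : ∀ v ∈ V, v⁻¹ = v := fun v hv => inv_eq_of_mul_eq_one_right (va.el v hv)
  have com : ∀ a ∈ V, ∀ b ∈ V, a * b = b * a := fun a ha b hb => by
    rw [← inv _ (V.mul_mem ha hb), mul_inv_rev, inv a ha, inv b hb]
  have hm : ∀ j < 16, ψ (toSet (cc j)) ∈ V := fun j hj => td.mem _ (even_cc hj)
  have h0 : ψ (toSet (cc 0)) = 1 := by
    rw [td.ker _ (even_cc (by norm_num)), show cc 0 = 0 by decide +kernel, toSet_zero]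
    exact empty_mem_codeSets
  have rep : ∀ v ∈ V, ∃ j < 16, ∃ w ∈ WT ψ, v = ψ (toSet (cc j)) * w := by
    have hi : ((WT ψ).subgroupOf V).index = 16 := by
      have := ((WT ψ).subgroupOf V).card_mul_index
      rw [Nat.card_congr (subgroupOfEquivOfLe va.WV).toEquiv, ta.cW, va.cV] at this
      omega
    have hb : Function.Bijective fun j : Fin 16 =>
        (QuotientGroup.mk ⟨_, hm j j.2⟩ : V ⧸ (WT ψ).subgroupOf V) := by
      refine Function.Injective.bijective_of_nat_card_le (fun i j h => Fin.ext ?_) ?_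
      · have h := mem_subgroupOf.1 (QuotientGroup.eq.1 h)
        change (ψ (toSet (cc i)))⁻¹ * ψ (toSet (cc j)) ∈ _ at h
        rw [inv _ (hm i i.2), ← td.add _ _ (even_cc i.2) (even_cc j.2),
          kW _ (even_symm (even_cc i.2) (even_cc j.2)), ← toSet_xor] at h
        refine chk2 i i.2 j j.2 fun a ha b hb => ?_
        have := h _ (mem_famDec.2 ⟨a, ha, rfl⟩) _ (mem_famDec.2 ⟨b, hb, rfl⟩)
        rwa [card_toSet_inter _ (xor_lt (cc_lt _) (cc_lt _)),
          card_toSet_inter _ (xor_lt (cc_lt _) (cc_lt _))] at this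
      · rw [← index, hi, Nat.card_fin]
    intro v hv
    obtain ⟨j, hj⟩ := hb.2 (QuotientGroup.mk ⟨v, hv⟩)
    exact ⟨j, j.2, _, mem_subgroupOf.1 (QuotientGroup.eq.1 hj), (mul_inv_cancel_left _ _).symm⟩
  have key : ∀ n : NN V, ρ n ∈ gen gF → ∀ j < 16, ∀ w ∈ WT ψ,
      (⁅(n : G), ψ (toSet (cc j)) * w⁆ ∈ zpowers (ψ t0) ↔ P j (ρ n)) := by
    intro n hn j hj w hw
    have h1 := va.RW n (coe_mem_pre.2 hn) w hw
    have h2 : ⁅(n : G), w⁆ ∈ V := va.WV (zpowers_le.2 va.zW h1)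
    have he : Even (ρ n • toSet (cc j)).card := by
      rw [Finset.card_smul_finset]; exact even_cc hj
    have h3 : ⁅(n : G), ψ (toSet (cc j)) * w⁆ =
        ψ (symmDiff (ρ n • toSet (cc j)) (toSet (cc j))) * ⁅(n : G), w⁆ := by
      have e := td.add _ _ he (even_cc hj)
      change ψ (symmDiff _ _) = _ at e
      rw [e, ← td.act n _ (even_cc hj), mul_assoc _ (ψ _) ⁅(n : G), w⁆, com _ (hm j hj) _ h2]
      nth_rewrite 3 [← inv _ (hm j hj)]
      simp only [commutatorElement_def]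
      group
    rw [h3, mul_mem_cancel_right h1, kz _ (even_symm he (even_cc hj))]
    rfl
  have nz : ∀ {j : ℕ} {w : G}, w ∈ WT ψ → ψ (toSet (cc j)) * w ∉ WT ψ → j ≠ 0 := by
    rintro j w hw h rfl
    rw [h0, one_mul] at h
    exact h hw
  refine ⟨fun v hv hW => ?_, fun v hv v' hv' hW hW' hWW r hr h1 h2 => ?_, fun e he => ?_⟩
  · obtain ⟨j, hj, w, hw, rfl⟩ := rep v hv
    have h := ncard_pre tz.st {x | x ∈ gen gF ∧ P j x}
    rw [ncard_P hj, if_neg (nz hw hW)] at h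
    refine (Set.ncard_le_ncard ?_ (Set.toFinite _)).trans (h.trans (by norm_num))
    rintro r ⟨h1, h2⟩
    obtain ⟨hr, h1⟩ := mem_pre.1 h1
    exact ⟨hr, h1, (key ⟨r, hr⟩ h1 j hj w hw).1 h2⟩
  · obtain ⟨i, hi, w, hw, rfl⟩ := rep v hv
    obtain ⟨j, hj, w', hw', rfl⟩ := rep v' hv'
    obtain ⟨hr, h⟩ := mem_pre.1 hr
    have p1 := (key ⟨r, hr⟩ h i hi w hw).1 h1
    have p2 := (key ⟨r, hr⟩ h j hj w' hw').1 h2
    have hij : i ≠ j := by
      rintro rfl
      refine hWW ?_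
      rw [com _ (hm i hi) w (va.WV hw), mul_assoc, ← mul_assoc (ψ _), va.el _ (hm i hi), one_mul]
      exact mul_mem hw hw'
    obtain ⟨y, hy, e, hp⟩ := forall_gen inM_gF chk4 h
    rw [← e, P_iff _ _ hy] at p1 p2
    refine (tz.st.ker ⟨r, hr⟩).1 ?_
    rw [← e, toM_eq_one_iff hy]
    rcases Bool.or_eq_true_iff.1 hp with hp | hp
    · exact Nat.eq_of_beq_eq_true hp
    · have := of_allB (of_allB hp hi) hj
      simp [p1, p2, nz hw hW, nz hw' hW', hij] at this
  · obtain ⟨j, hj, w, hw, rfl⟩ := rep e he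
    obtain ⟨x, ⟨h1, h2⟩, h3⟩ := Set.exists_ne_of_one_lt_ncard
      (s := {x | x ∈ gen gF ∧ P j x}) (by rw [ncard_P hj]; split_ifs <;> norm_num) 1
    obtain ⟨n, rfl⟩ := tz.st.sur x
    exact ⟨n, coe_mem_pre.2 h1, fun h => h3 ((tz.st.ker n).2 h), (key n h1 j hj w hw).2 h2⟩

theorem eqns : True := by
  have := @P.eq_1
  have := @K.eq_1
  trivial

end Cfsg.Agent.H16.RfTb
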