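import Cfsg.Agent.H77.SgDefs2
import Cfsg.Agent.H51.SgKit

/-! No irreducible character of small degree is non-trivial on the torus (project SG). -/

set_option autoImplicit false

namespace Cfsg.Agent.H16.SgSmall

open Cfsg Module Subgroup Cfsg.Agent.H77.Sg Cfsg.Agent.H11

universe u v

theorem small (uc : Uc0.{u, v}) (e1 : E10.{u, v}) : Small0.{u, v} := by
  intro F K _ _ _ _ _ n q t R X c hg ψ hψ hP
  have k := H51.SgKit.kit F K (c.hn ▸ c.pn)
  have : Finite (K ≃ₗ[F] K) := Finite.of_injective _ DFunLike.coe_injective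
  have hPX : Pt F K t ≤ X := fun _ ⟨s, hs, e⟩ =>
    e ▸ (c.mem s).2 ⟨1, s, hs, (one_smul _ _).symm⟩
  have hPS : Pt F K t ≤ SS X t := fun s hs => subset_closure ⟨1, X.one_mem, s, hs, by simp⟩
  have hSX : SS X t ≤ X := (closure_le _).2 (by
    rintro _ ⟨g, hg, s, hs, rfl⟩
    exact X.mul_mem (X.mul_mem hg (hPX hs)) (X.inv_mem hg))
  obtain ⟨hc, hU⟩ := uc F K n q t R X c
  obtain ⟨U, h1, h2, h3, -⟩ := hU _ hPS hSX
  obtain ⟨j, hj, h4, h5⟩ := e1 F K n q t R X c hg
  have := Fintype.ofFinite (SS X t)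
  by_contra! hd
  have hr := isCharacter_restrict_of_le (isCharacter_of_irr hψ) hSX
  obtain ⟨x, hx, hx'⟩ := SetLike.not_le_iff_exists.1 hP
  have h6 : (⟨x, hPS hx⟩ : SS X t) ∉ charKer (fun y : SS X t => ψ ⟨y, hSX y.2⟩) := fun h =>
    hx' ((mem_charKer_irr_iff hψ).2 ((mem_charKer_iff hr).1 h))
  rw [mem_charKer_iff_forall_constituent hr] at h6
  push Not at h6
  obtain ⟨χ, hχ, h7, h8⟩ := h6
  have h9 : charDegree χ ≤ charDegree ψ := H24.deg_le_of_inner_ne_zero hr hχ h7
  refine h5 ?_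
  have he := fun h => (U.isIrr_res h hχ
    (fun e => h8 (by rw [e]; exact fun _ => rfl)) (by
      rw [h1, Nat.card_congr (subgroupOfEquivOfLe hPS).toEquiv,
        k.cardP t (by rw [c.card]; exact dvd_mul_left _ _)]
      exact (Nat.succ_le_succ (Nat.pow_le_pow_left (h9.trans hd) 2)).trans_lt c.big)).2
  rw [H12.UC.e, relIndex_eq_one, h2] at he
  refine he (fun θ hθ hθ1 hle => hθ1 (irr_eq_one_of_charKer_eq_top hθ ?_)) ((h3 ⟨j, hj⟩).2 h4)
  · have := charKer_normal (isClassFunction_of_irr hθ)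
    have h10 : t.Coprime (charKer θ).index := hc.coprime_dvd_right
      ((index_dvd_of_le (h1 ▸ hle)).trans (Dvd.intro _ (relIndex_mul_relIndex _ _ _ hPS hSX)))
    refine eq_top_iff.2 fun ⟨y, hy⟩ _ => ?_
    induction hy using closure_induction with
    | mem y hy =>
      obtain ⟨g, -, _, ⟨s, hs, rfl⟩, rfl⟩ := hy
      refine (QuotientGroup.eq_one_iff _).1 ((pow_eq_one_iff_of_coprime h10).1 ⟨?_, ?_⟩)
      · rw [← QuotientGroup.mk_pow, QuotientGroup.eq_one_iff]
        convert (charKer θ).one_mem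
        refine Subtype.ext ?_
        rw [coe_pow, conj_pow, ← map_pow, show s ^ t = 1 from hs, map_one, mul_one,
          mul_inv_cancel, coe_one]
      · exact pow_card_eq_one'
    | one => exact one_mem _
    | mul a b _ _ ha hb => exact mul_mem (ha trivial) (hb trivial)
    | inv a _ ha => exact inv_mem (ha trivial)

end Cfsg.Agent.H16.SgSmall
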