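import Cfsg.Agent.H74.UVDefs

/-! A Frattini argument for a subgroup of prime order (piece FRAT). -/

set_option autoImplicit false

namespace Cfsg.Agent.H16.UvFrat

open Subgroup Cfsg.Agent.H74.UV
open scoped Pointwise

universe u

theorem frat : FratStmt.{u} := by
  intro G _ _ l N hN hl gl x hx ho g
  haveI := Fact.mk hl
  have pz : ∀ a : N, orderOf (a : G) = l → ∃ Q : Sylow l N, a ∈ Q := fun a ha => by
    obtain ⟨Q, hQ⟩ := (IsPGroup.of_card (p := l) (n := 1) (G := zpowers a)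
      (by rw [Nat.card_zpowers, ← orderOf_coe, ha, pow_one])).exists_le_sylow
    exact ⟨Q, hQ (mem_zpowers a)⟩
  have oc : ∀ c : G, orderOf (c * x * c⁻¹) = l := fun c =>
    ((MulAut.conj c).orderOf_eq x).trans ho
  obtain ⟨Q, hQ⟩ := pz ⟨x, hx⟩ ho
  obtain ⟨Q', hQ'⟩ := pz ⟨_, hN.conj_mem x hx g⟩ (oc g)
  obtain ⟨k, rfl⟩ := MulAction.exists_smul_eq N Q' Q
  have h2 : k * ⟨_, hN.conj_mem x hx g⟩ * k⁻¹ ∈ k • Q' :=
    smul_mem_pointwise_smul _ (MulAut.conj k) (Q' : Subgroup N) hQ'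
  generalize k • Q' = Q at hQ h2
  haveI : Nontrivial Q := ⟨⟨⟨_, hQ⟩, 1, fun e => by
    have : x = 1 := congrArg (fun y : Q => ((y : N) : G)) e
    rw [this, orderOf_one] at ho
    exact hl.one_lt.ne ho⟩⟩
  haveI := Q.isPGroup'.center_nontrivial
  obtain ⟨n, n0, hn⟩ := (Q.isPGroup'.to_subgroup (center Q)).nontrivial_iff_card.1 inferInstance
  obtain ⟨y, hy⟩ := exists_prime_orderOf_dvd_card' (G := center Q) l (hn ▸ dvd_pow_self l n0.ne')
  have oy : orderOf (((y : Q) : N) : G) = l := by rwa [orderOf_coe, orderOf_coe, orderOf_coe]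
  have cm : ∀ a : N, a ∈ Q → Commute (a : G) (((y : Q) : N) : G) := fun a ha =>
    congrArg (fun y : Q => ((y : N) : G)) (mem_center_iff.1 y.2 ⟨a, ha⟩)
  refine ⟨k, k.2, gl.cy _ _ ho (oc _) (gl.ab _ _ _ oy (cm _ hQ) ?_)⟩
  have := cm _ h2
  simp only [coe_mul, coe_inv] at this
  convert this using 1
  group

end Cfsg.Agent.H16.UvFrat
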