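import Cfsg.Agent.H74.UVDefs
import Cfsg.Agent.H11.Inner

/-! Project UV: the functions on the torus. -/

set_option autoImplicit false

namespace Cfsg.Agent.H16.UvFun

open Cfsg Module Cfsg.Agent.H31 Cfsg.Agent.H77.Sg Cfsg.Agent.H74.UV

universe u

section
variable {G : Type*} [Group G] [Fintype G] (μ : G →* ℂˣ)

/-- The multiplicity of a linear character. -/
noncomputable def S (f : G → ℂ) : ℂ := (Nat.card G : ℂ)⁻¹ * ∑ g, (((μ g)⁻¹ : ℂˣ) : ℂ) * f g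

theorem S_shift (f : G → ℂ) (z : G) : S μ (fun g => f (z * g)) = μ z * S μ f := by
  simp only [S]
  rw [← Equiv.sum_comp (Equiv.mulLeft z) fun g => (((μ g)⁻¹ : ℂˣ) : ℂ) * f g, mul_left_comm,
    Finset.mul_sum _ _ (μ z : ℂ)]
  refine congrArg _ (Finset.sum_congr rfl fun g _ => ?_)
  simp only [Equiv.coe_mulLeft, map_mul, mul_inv, Units.val_mul, ← mul_assoc, Units.mul_inv, one_mul]

theorem S_conj (f : G → ℂ) (k : G) : S μ (fun g => f (k * g * k⁻¹)) = S μ f := by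
  simp only [S]
  rw [← Equiv.sum_comp (MulAut.conj k).toEquiv fun g => (((μ g)⁻¹ : ℂˣ) : ℂ) * f g]
  simp

theorem S_smul (c : ℂ) (f : G → ℂ) : S μ (fun g => c * f g) = c * S μ f := by
  simp only [S, Finset.mul_sum, mul_left_comm c]

theorem S_sum {ι : Type*} (s : Finset ι) (f : ι → G → ℂ) :
    S μ (fun g => ∑ i ∈ s, f i g) = ∑ i ∈ s, S μ (f i) := by
  simp only [S, Finset.mul_sum]
  exact Finset.sum_comm

theorem S_one {f χ : G → ℂ} (hχ : IsIrrCharacter G χ) (hne : χ ≠ fun g => (μ g : ℂ))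
    (h : ∀ g, f g = μ g + χ g) : S μ f = 1 := by
  have hμ := H11.isIrrCharacter_monoidHom μ
  have := H11.classInner_add_left (fun g => (μ g : ℂ)) χ fun g => (μ g : ℂ)
  rw [H11.classInner_irr_self hμ, H11.classInner_irr_of_ne hχ hμ hne, add_zero,
    H11.classInner_eq_sum_inv (H11.isCharacter_monoidHom μ)] at this
  rw [← this, S]
  simp only [h, map_inv, Pi.add_apply, mul_comm]

end

section
variable {E K : Type u} [Field E] [Field K] [Algebra E K] {G : Subgroup (K ≃ₗ[E] K)} [Fintype G]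
  {q : ℕ} (μ : G →* ℂˣ)

theorem hm_eq (s : Kˣ) : hm q μ s = S μ fun g => wo q (mulH E K s * g.1) := by
  rw [hm, finsum_eq_sum_of_fintype, S]

theorem hm_mul {a : Kˣ} (ha : mulH E K a ∈ G) (s : Kˣ) :
    hm q μ (a * s) = μ ⟨_, ha⟩ * hm q μ s := by
  rw [hm_eq, hm_eq, ← S_shift, mul_comm a, map_mul]
  rfl

end

theorem funS (dc : DcStmt.{u}) (wr : WrStmt.{u}) (orbn : OrbnStmt.{u}) (span : SpanStmt.{u}) :
    FunStmt.{u} := by
  intro E K _ _ _ _ _ σ B q R t G hC hZ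
  classical
  have : Finite (K ≃ₗ[E] K) := Finite.of_injective _ DFunLike.coe_injective
  have := Fintype.ofFinite G
  have : Finite (Ch K q) := Nat.finite_of_card_ne_zero (by rw [hC.cardCh]; omega)
  have := Fintype.ofFinite (Ch K q)
  have := Fintype.ofFinite (Rt K (q + 1))
  obtain ⟨ψ, a, L, hW⟩ := wr E K σ B q R t hC.toKt
  obtain ⟨I, hI⟩ : ∃ I : Finset (Ch K q), ∀ ν, ν ∈ I ↔ ¬ IsIrrCharacter G fun g => ze q ν g.1 :=
    ⟨Finset.univ.filter fun ν => ¬ IsIrrCharacter G fun g => ze q ν g.1, fun ν => by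
      rw [Finset.mem_filter, and_iff_right (Finset.mem_univ _)]⟩
  have hS : ∀ ν ∈ I, ν ≠ 1 ∧ Spl G q t ν := fun ν hν =>
    (dc E K σ B q R t G hC hZ ν).resolve_left ((hI ν).1 hν)
  have hZG : ∀ z ∈ Rt K (q + 1), mulH E K z ∈ G := fun z hz =>
    (hC.mem z).2 ⟨z, hz, 1, one_mem _, (mul_one z).symm⟩
  have hPG : ∀ s ∈ Rt K t, mulH E K s ∈ G := fun s hs =>
    (hC.mem s).2 ⟨1, one_mem _, s, hs, (one_mul s).symm⟩
  obtain ⟨μ, hμ⟩ : ∃ μ : Ch K q → G →* ℂˣ, ∀ ν ∈ I, S (μ ν) (fun g => ze q ν g.1) = 1 ∧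
      ∀ g : G, g.1 ∈ Pt E K t → μ ν g = 1 := by
    have : ∀ ν, ∃ μ : G →* ℂˣ, ν ∈ I → S μ (fun g => ze q ν g.1) = 1 ∧
        ∀ g : G, g.1 ∈ Pt E K t → μ g = 1 := fun ν => by
      by_cases hν : ν ∈ I
      · obtain ⟨μ, χ, h1, h2, h3, h4⟩ := (hS ν hν).2
        exact ⟨μ, fun _ => ⟨S_one μ h1 h2 h3, h4⟩⟩
      · exact ⟨1, fun h => absurd h hν⟩
    exact Classical.skolem.1 this
  have hA : ∀ ν ∈ I, ∀ (z : Rt K (q + 1)) (g : G), g.1 = mulH E K z → μ ν g = ν z :=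
    fun ν hν z g hg => by
      have := S_shift (μ ν) (fun g => ze q ν g.1) g
      simp only [Subgroup.coe_mul, hg, hZ.cen, S_smul, (hμ ν hν).1, mul_one] at this
      exact Units.ext this.symm
  have hz : ∀ ν ∈ I, ∀ (z : Rt K (q + 1)) s, hm q (μ ν) (z * s) = ν z * hm q (μ ν) s :=
    fun ν hν z s => by rw [hm_mul _ (hZG z z.2), hA ν hν z _ rfl]
  have h1 : ∀ ν ∈ I, hm q (μ ν) 1 = 1 := fun ν hν => by
    have := (hμ ν hν).1
    have hq : (q : ℂ) + 1 ≠ 0 := by exact_mod_cast q.succ_ne_zero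
    simp only [ze, finsum_eq_sum_of_fintype, S_smul, S_sum, ← hm_eq] at this
    rw [Finset.sum_congr rfl fun z _ => by
      rw [← mul_one z.1, hz ν hν, Units.inv_mul_cancel_left], Finset.sum_const, Finset.card_univ,
      ← Nat.card_eq_fintype_card, hC.cardZ, nsmul_eq_mul, Nat.cast_succ,
      inv_mul_cancel_left₀ hq] at this
    exact this
  have hO := orbn E K σ B q R t G hC hZ
  have ho := hO.2 I (fun ν hν => (hS ν hν).2) fun ν hν => not_not.1 (mt (hI ν).2 hν)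
  have h0 : 1 ∉ I := fun h => (hS 1 h).1 rfl
  have hs := span E K σ B q R t G ψ a L I μ hC.toKt hZ hW hC.le hZG
    (by rintro _ ⟨s, hs, rfl⟩; exact hPG s hs) h0 hA (fun ν hν => (hμ ν hν).2) h1 ho.le
  have hs' := (span E K σ B q R t (isom B) ψ a L ∅ (fun _ => 1) hC.toKt hZ hW le_rfl
    (fun z hz => (hC.iso z).2 (hC.ZT hz)) (by rintro _ ⟨s, hs, rfl⟩; exact (hC.iso s).2 (hC.PT hs))
    (Finset.notMem_empty _) (by simp) (by simp) (by simp) hO.1).2
  refine ⟨ψ, I, fun ν => hm q (μ ν), hW.sk, h0, fun ν hν z s _ => hz ν hν z s,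
    fun ν hν p hp s _ => ?_, fun ν hν s _ => ?_, h1, hs.1, hs.2, fun f hf => ?_, ho,
    fun ν hν => not_not.1 (mt (hI ν).2 hν)⟩
  · rw [hm_mul _ (hPG p hp), (hμ ν hν).2 _ ⟨p, hp, rfl⟩, Units.val_one, one_mul]
  · obtain ⟨φ, hφ, e⟩ := hC.frob
    have : mulH E K (s ^ q ^ 2) * φ = φ * mulH E K s := by
      ext x
      simp only [LinearEquiv.mul_apply, mulH_apply, e, mul_pow, Units.val_pow_eq_pow_val]
    rw [hm_eq, hm_eq, ← S_conj _ _ ⟨φ, hφ⟩]
    refine congrArg _ (funext fun g => ?_)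
    rw [← hZ.cls (mulH E K s * g.1) φ, ← mul_assoc φ, ← this]
    simp only [Subgroup.coe_mul, Subgroup.coe_inv, mul_assoc]
  · obtain ⟨c₀, c, h⟩ := hs' f hf
    exact ⟨c₀, fun s a b => by simpa using h s a b⟩

theorem eqns : True := by
  have := @S.eq_1.{0}
  trivial

end Cfsg.Agent.H16.UvFun
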